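import Cfsg.Agent.Uniqueness.Frattini
import Cfsg.Agent.S1393
import Cfsg.Agent.S1395
import Cfsg.Agent.S1396
import Cfsg.Agent.S1452
import Cfsg.Agent.PGroup.Basic

/-!
Subgroups of coprime order invariant under a self-centralizing normal subgroup of rank three.
-/

set_option autoImplicit false
set_option linter.unusedSectionVars false
set_option linter.style.haveILetI false

namespace CfsgLib.Uniq

open CfsgLib.BenderUnique

universe u

variable {G : Type u} [Group G] [Finite G] {p : ℕ} [hp : Fact p.Prime]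

theorem isMulCommutative_of_scn {R A : Subgroup G} (h : Cfsg.IsSCN R A) : IsMulCommutative A :=
  Subgroup.le_centralizer_iff_isMulCommutative.1 fun _ ha => (Subgroup.mem_inf.1 (h.2.2.ge ha)).2

theorem coprime_card_of_isPGroup {A Y : Subgroup G} (hA : IsPGroup p A) (hY : (Nat.card Y).Coprime p) :
    (Nat.card A).Coprime (Nat.card Y) := by
  obtain ⟨n, hn⟩ := hA.exists_card_eq
  rw [hn]
  exact hY.symm.pow_left n

theorem isSolvable_of_isPGroup {A : Subgroup G} (hA : IsPGroup p A) : Group.IsSolvable A :=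
  haveI := hA.isNilpotent
  inferInstance

theorem dvd_card_of_ne_bot {A : Subgroup G} (hA : IsPGroup p A) (h1 : A ≠ ⊥) : p ∣ Nat.card A := by
  obtain ⟨n, hn⟩ := hA.exists_card_eq
  rw [hn]
  refine dvd_pow_self p ?_
  rintro rfl
  exact h1 (Subgroup.card_eq_one.1 (by rw [hn, pow_zero]))

theorem prime_ne_of_mem {q : ℕ} (hq : q.Prime) {A : Subgroup G} (hA : IsPGroup p A) (hne : q ≠ p) :
    ¬ q ∣ Nat.card A := by
  obtain ⟨n, hn⟩ := hA.exists_card_eq
  rw [hn]
  exact fun h => hne ((Nat.prime_dvd_prime_iff_eq hq hp.out).1 (hq.dvd_of_dvd_pow h))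

theorem coprime_of_isPi {A Y : Subgroup G} (hA : IsPGroup p A) (h1 : A ≠ ⊥)
    (hY : Cfsg.IsPiSubgroup (Cfsg.primesNotDvd (Nat.card A)) Y) : (Nat.card Y).Coprime p :=
  PCore.coprime_of_not_dvd fun hd => (hY p hp.out hd).2 (dvd_card_of_ne_bot hA h1)

theorem coprime_of_qgroup {q : ℕ} (hq : q.Prime) (hne : q ≠ p) {Y : Subgroup G} (hY : IsPGroup q Y) :
    (Nat.card Y).Coprime p := by
  haveI := Fact.mk hq
  obtain ⟨n, hn⟩ := hY.exists_card_eq
  rw [hn]
  exact ((Nat.coprime_primes hq hp.out).2 hne).pow_left n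

/-- An invariant subgroup of coprime order lies in `X` once its invariant Sylow subgroups do. -/
theorem le_of_invariant_primes {A Y X : Subgroup G} (hA : IsPGroup p A) (hY : (Nat.card Y).Coprime p)
    (hn : A ≤ Subgroup.normalizer (Y : Set G))
    (h : ∀ q : ℕ, q.Prime → q ≠ p → ∀ T : Subgroup G, IsPGroup q T → T ≤ Y →
      A ≤ Subgroup.normalizer (T : Set G) → T ≤ X) : Y ≤ X := by
  have hdvd : Nat.card Y ∣ Nat.card ↥(Y ⊓ X) := by
    rw [← Nat.factorization_prime_le_iff_dvd Nat.card_pos.ne' Nat.card_pos.ne']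
    intro q hq
    haveI := Fact.mk hq
    refine (hq.pow_dvd_iff_le_factorization Nat.card_pos.ne').1 ?_
    by_cases hd : q ∣ Nat.card Y
    · have hne : q ≠ p := by
        rintro rfl
        exact hq.coprime_iff_not_dvd.1 hY.symm hd
      obtain ⟨P, hP⟩ := CoprimeAction.exists_invariant_sylow hn (coprime_card_of_isPGroup hA hY)
        (Or.inl (isSolvable_of_isPGroup hA)) q
      rw [← CoprimeAction.card_sylow_map P]
      exact Subgroup.card_dvd_of_le (le_inf (Subgroup.map_subtype_le _)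
        (h q hq hne _ (P.isPGroup'.map _) (Subgroup.map_subtype_le _) hP))
    · rw [Nat.factorization_eq_zero_of_not_dvd hd, pow_zero]
      exact one_dvd _
  exact inf_eq_left.1 (Subgroup.eq_of_le_of_card_ge inf_le_left (Nat.le_of_dvd Nat.card_pos hdvd))

/-- The `p'`-core of the centralizer of a normal subgroup of `P` is normalized by `P`. -/
theorem le_normalizer_coreCentralizer {A P : Subgroup G} (hn : P ≤ Subgroup.normalizer (A : Set G)) :
    P ≤ Subgroup.normalizer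
      (Cfsg.piCoreOf (Cfsg.primesNotDvd (Nat.card A)) (Subgroup.centralizer (A : Set G)) : Set G) :=
  fun x hx => Signalizer.normalizer_le_normalizer_piCoreOf _ _
    (Components.normalizer_le_normalizer_centralizer _ (hn hx))

theorem not_rankLE_inf {A : Subgroup G} [IsMulCommutative A] {k : ℕ} (h : ¬ Cfsg.PRankLE p k A) :
    ¬ Cfsg.RankLE k ↥(A ⊓ Subgroup.centralizer (A : Set G)) := by
  rw [inf_eq_left.2 (Subgroup.le_centralizer A)]
  exact fun hle => h (hle p hp.out)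

theorem transitivityHypothesis_of_scn (hG : Cfsg.IsMinSimpleOddOrder G) (P : Sylow p G) {A : Subgroup G}
    (hA : Cfsg.IsSCN (P : Subgroup G) A) (h3 : ¬ Cfsg.PRankLE p 2 A) : Cfsg.TransitivityHypothesis A := by
  obtain ⟨E, hEA, hE, hEc⟩ := exists_elem_of_not_prank h3
  refine Cfsg.Agent.S1396.result hG p (dvd_card_of_elementary hEc) A (P.isPGroup'.to_le hA.1)
    (isMulCommutative_of_scn hA) (Or.inr ⟨P, hA, ?_⟩)
  exact not_prank_of_elem hEA hE (hEc ▸ Nat.pow_lt_pow_right hp.out.one_lt (by norm_num))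

/-- B&G 7.5 for a `p`-group `B` normalizing `A`. -/
theorem exists_invariant_max (hG : Cfsg.IsMinSimpleOddOrder G) (P : Sylow p G) {A : Subgroup G}
    (hA : Cfsg.IsSCN (P : Subgroup G) A) (h3 : ¬ Cfsg.PRankLE p 2 A) {q : ℕ} (hq : q.Prime) (hqp : q ≠ p)
    {B : Subgroup G} (hB : IsPGroup p B) (hAB : A ≤ B) (hn : (A.subgroupOf B).IsSubnormal) :
    (∀ Q₁ ∈ Cfsg.maxInvSubgroups ⊤ A {q}, ∀ Q₂ ∈ Cfsg.maxInvSubgroups ⊤ A {q},
      ∃ k ∈ Cfsg.piCoreOf (Cfsg.primesNotDvd (Nat.card A)) (Subgroup.centralizer (A : Set G)),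
        Q₂ = Q₁.map (MulAut.conj k).toMonoidHom) ∧
    (∀ Q₁ ∈ Cfsg.maxInvSubgroups ⊤ B {q}, ∀ Q₂ ∈ Cfsg.maxInvSubgroups ⊤ B {q},
      ∃ k ∈ Cfsg.piCoreOf (Cfsg.primesNotDvd (Nat.card A)) (Subgroup.centralizer (B : Set G)),
        Q₂ = Q₁.map (MulAut.conj k).toMonoidHom) ∧
    ∃ Q, Q ∈ Cfsg.maxInvSubgroups ⊤ B {q} ∧ Q ∈ Cfsg.maxInvSubgroups ⊤ A {q} := by
  haveI := Fact.mk hq
  haveI := isMulCommutative_of_scn hA
  have hAp : IsPGroup p A := P.isPGroup'.to_le hA.1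
  have hT := transitivityHypothesis_of_scn hG P hA h3
  have hqA : ¬ q ∣ Nat.card A := prime_ne_of_mem hq hAp hqp
  have htr := Cfsg.Agent.S1393.result hG A hT (not_rankLE_inf h3) q hq hqA
  have hBπ : ∀ r : ℕ, r.Prime → r ∣ Nat.card B → r ∣ Nat.card A := by
    intro r hr hd
    by_cases hrp : r = p
    · exact hrp ▸ dvd_card_of_ne_bot hAp hT.1
    · exact absurd hd (prime_ne_of_mem hr hB hrp)
  obtain ⟨-, hb, hc, -⟩ := Cfsg.Agent.S1395.result hG A hT q hq hqA B (pgroup_ne_top hG hB) hBπ hAB hn htr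
  obtain ⟨Q, hQ, -⟩ := Signalizer.exists_max_ge (q := q) (H := ⊤) (A := B) (Y := ⊥)
    (Signalizer.mem_invSubgroups_top_singleton.2 ⟨IsPGroup.of_bot,
      by rw [Subgroup.normalizer_eq_top (H := (⊥ : Subgroup G))]; exact le_top⟩)
  exact ⟨htr, hb, Q, hQ, hc hQ⟩

/-- All `A`-invariant subgroups of order prime to `p` lie in `X` if those invariant under the Sylow group do. -/
theorem le_of_scn (hG : Cfsg.IsMinSimpleOddOrder G) (P : Sylow p G) {A : Subgroup G}
    (hA : Cfsg.IsSCN (P : Subgroup G) A) (h3 : ¬ Cfsg.PRankLE p 2 A) {X : Subgroup G}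
    (h : ∀ Y : Subgroup G, (Nat.card Y).Coprime p → (P : Subgroup G) ≤ Subgroup.normalizer (Y : Set G) → Y ≤ X)
    {Y : Subgroup G} (hY : (Nat.card Y).Coprime p) (hn : A ≤ Subgroup.normalizer (Y : Set G)) : Y ≤ X := by
  have hAp : IsPGroup p A := P.isPGroup'.to_le hA.1
  have hT := transitivityHypothesis_of_scn hG P hA h3
  refine le_of_invariant_primes hAp hY hn fun q hq hqp T hT' _ hAT => ?_
  haveI := Fact.mk hq
  haveI : (A.subgroupOf (P : Subgroup G)).Normal := Subgroup.normal_subgroupOf_of_le_normalizer hA.2.1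
  obtain ⟨htr, -, Q₀, hQ₀, hQ₀A⟩ := exists_invariant_max hG P hA h3 hq hqp P.isPGroup' hA.1
    (Subgroup.Normal.isSubnormal inferInstance)
  obtain ⟨Q, hQ, hTQ⟩ := Signalizer.exists_max_ge (q := q) (H := ⊤) (A := A) (Y := T)
    (Signalizer.mem_invSubgroups_top_singleton.2 ⟨hT', hAT⟩)
  obtain ⟨k, hk, hQk⟩ := htr Q₀ hQ₀A Q hQ
  have hkX : k ∈ X := h _ (coprime_of_isPi hAp hT.1 (Signalizer.piCoreOf_isPi _ _))
    (le_normalizer_coreCentralizer hA.2.1) hk
  obtain ⟨hQ₀q, hPQ₀⟩ := Signalizer.mem_invSubgroups_top_singleton.1 hQ₀.1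
  have hQ₀X : Q₀ ≤ X := h _ (coprime_of_qgroup hq hqp hQ₀q) hPQ₀
  refine hTQ.trans ?_
  rw [hQk]
  rintro _ ⟨x, hx, rfl⟩
  exact X.mul_mem (X.mul_mem hkX (hQ₀X hx)) (X.inv_mem hkX)

/-- A normal self-centralizing subgroup exists in every `p`-group. -/
theorem exists_scn {R : Subgroup G} (hR : IsPGroup p R) : ∃ A : Subgroup G, Cfsg.IsSCN R A := by
  obtain ⟨A, hA⟩ := (Set.toFinite {A : Subgroup R | A.Normal ∧ IsMulCommutative A}).exists_maximal
    ⟨⊥, inferInstance, inferInstance⟩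
  haveI := hA.prop.1
  have hc := PGroup.centralizer_maximal_normal_abelian hR hA.prop.2
    (fun B hB hBc hle => le_antisymm (hA.2 ⟨hB, hBc⟩ hle) hle)
  refine ⟨A.map R.subtype, Subgroup.map_subtype_le _, ?_, ?_⟩
  · refine le_trans ?_ (Subgroup.le_normalizer_map _)
    rw [Subgroup.normalizer_eq_top (H := A), ← MonoidHom.range_eq_map, Subgroup.range_subtype]
  · refine le_antisymm (fun x hx => ?_) (le_inf (Subgroup.map_subtype_le _) ?_)
    · obtain ⟨hxR, hxC⟩ := Subgroup.mem_inf.1 hx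
      refine ⟨⟨x, hxR⟩, hc ▸ Subgroup.mem_centralizer_iff.2 fun a ha => Subtype.ext ?_, rfl⟩
      exact Subgroup.mem_centralizer_iff.1 hxC _ ⟨a, ha, rfl⟩
    · rintro _ ⟨a, ha, rfl⟩
      refine Subgroup.mem_centralizer_iff.2 ?_
      rintro _ ⟨b, hb, rfl⟩
      exact congrArg Subtype.val (Subgroup.mem_centralizer_iff.1 (hc.ge ha) b hb)

/-- Rank three gives a normal self-centralizing subgroup of rank three. -/
theorem exists_scn_three (hp2 : p ≠ 2) {R : Subgroup G} (hR : IsPGroup p R) (h3 : ¬ Cfsg.PRankLE p 2 R) :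
    ∃ A : Subgroup G, Cfsg.IsSCN R A ∧ ¬ Cfsg.PRankLE p 2 A := by
  have h1 : ¬ Cfsg.PRankLE p 1 R := by
    obtain ⟨E, hER, hE, hEc⟩ := exists_elem_of_not_prank h3
    exact not_prank_of_elem hER hE (hEc ▸ Nat.pow_lt_pow_right hp.out.one_lt (by norm_num))
  obtain ⟨E, hEn, hE, hEc⟩ := exists_normal_elem_sq hp2 hR h1
  obtain ⟨A, -, hAn, hc, hA3⟩ := Cfsg.Agent.S1452.result p hp2 hR h3 E hE hEc
  haveI := hAn
  refine ⟨A.map R.subtype, ⟨Subgroup.map_subtype_le _, ?_, ?_⟩, ?_⟩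
  · refine le_trans ?_ (Subgroup.le_normalizer_map _)
    rw [Subgroup.normalizer_eq_top (H := A), ← MonoidHom.range_eq_map, Subgroup.range_subtype]
  · refine le_antisymm (fun x hx => ?_) (le_inf (Subgroup.map_subtype_le _) ?_)
    · obtain ⟨hxR, hxC⟩ := Subgroup.mem_inf.1 hx
      refine ⟨⟨x, hxR⟩, hc ▸ Subgroup.mem_centralizer_iff.2 fun a ha => Subtype.ext ?_, rfl⟩
      exact Subgroup.mem_centralizer_iff.1 hxC _ ⟨a, ha, rfl⟩
    · rintro _ ⟨a, ha, rfl⟩
      refine Subgroup.mem_centralizer_iff.2 ?_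
      rintro _ ⟨b, hb, rfl⟩
      exact congrArg Subtype.val (Subgroup.mem_centralizer_iff.1 (hc.ge ha) b hb)
  · intro hle
    obtain ⟨E', hE'A, hE', hE'c⟩ := exists_elem_of_not_prank hA3
    refine not_prank_of_elem (E := E'.map R.subtype) (Subgroup.map_mono hE'A) ⟨?_, ?_⟩ ?_ hle
    · haveI := hE'.1; infer_instance
    · rintro _ ⟨a, ha, rfl⟩
      rw [← map_pow, hE'.2 a ha, map_one]
    · rw [Subgroup.card_map_of_injective R.subtype_injective]
      exact pow_lt_card hE'c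

end CfsgLib.Uniq
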