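import Cfsg.Agent.Uniqueness.Basic
import Cfsg.Agent.PCore.AInvariant
import Cfsg.Agent.PCore.PConstrained
import Cfsg.Agent.ZJCenter.Normal
import Cfsg.Agent.S1457
import Cfsg.Agent.S1458

/-!
Frattini arguments in the solvable subgroups of a group.
-/

set_option autoImplicit false
set_option linter.unusedSectionVars false
set_option linter.style.haveILetI false

namespace CfsgLib.Uniq

open CfsgLib.BenderUnique

universe u

variable {G : Type u} [Group G] [Finite G] {p : ℕ} [hp : Fact p.Prime]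

/-- `O_{p'}` of a subgroup, inside the group. -/
def coreOf (p : ℕ) (L : Subgroup G) : Subgroup G := (Cfsg.pPrimeCore p L).map L.subtype

theorem coreOf_le (L : Subgroup G) : coreOf p L ≤ L := Subgroup.map_subtype_le _

theorem coreOf_coprime (L : Subgroup G) : (Nat.card (coreOf p L)).Coprime p := by
  rw [coreOf, Subgroup.card_map_of_injective L.subtype_injective]
  exact PCore.pPrimeCore_coprime p L

theorem normalizer_le_normalizer_coreOf (L : Subgroup G) :
    Subgroup.normalizer (L : Set G) ≤ Subgroup.normalizer (coreOf p L : Set G) := by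
  haveI := PCore.pPrimeCore_characteristic p L
  exact normalizer_le_normalizer_map L _

theorem le_normalizer_coreOf (L : Subgroup G) : L ≤ Subgroup.normalizer (coreOf p L : Set G) :=
  Subgroup.le_normalizer.trans (normalizer_le_normalizer_coreOf L)

theorem le_coreOf {L Y : Subgroup G} (hY : Y ≤ L) (hn : L ≤ Subgroup.normalizer (Y : Set G))
    (hc : (Nat.card Y).Coprime p) : Y ≤ coreOf p L := by
  rw [← Subgroup.map_subgroupOf_eq_of_le hY]
  refine Subgroup.map_mono (PCore.le_pPrimeCore (Subgroup.normal_subgroupOf_of_le_normalizer hn) ?_)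
  rwa [Nat.card_congr (Subgroup.subgroupOfEquivOfLe hY).toEquiv]

/-- A maximal `p`-subgroup of `L` containing `R`, as a Sylow subgroup of `L`. -/
theorem exists_sylow_eq {L R : Subgroup G} (hR : IsPGroup p R) (hRL : R ≤ L)
    (hmax : ∀ S : Subgroup G, IsPGroup p S → S ≤ L → R ≤ S → S = R) :
    ∃ S : Sylow p L, (S : Subgroup L).map L.subtype = R := by
  obtain ⟨S, hS⟩ := IsPGroup.exists_le_sylow (hR.comap_subtype : IsPGroup p (R.subgroupOf L))
  refine ⟨S, hmax _ (S.isPGroup'.map _) (Subgroup.map_subtype_le _) ?_⟩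
  rw [← Subgroup.map_subgroupOf_eq_of_le hRL]
  exact Subgroup.map_mono hS

theorem inf_normal_sylow_not_dvd {L : Type*} [Group L] [Finite L] (S : Sylow p L) (W : Subgroup L)
    [W.Normal] : ¬ p ∣ ((S : Subgroup L) ⊓ W).relIndex W := by
  intro hd
  refine S.not_dvd_index (hd.trans ?_)
  have h1 := Subgroup.relIndex_mul_relIndex ⊥ ((S : Subgroup L) ⊓ W) W bot_le inf_le_right
  have h2 := Subgroup.relIndex_mul_relIndex ⊥ (S : Subgroup L) (W ⊔ S) bot_le le_sup_right
  simp only [Subgroup.relIndex_bot_left] at h1 h2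
  have h3 := Hall.card_sup_mul_card_inf W (S : Subgroup L)
  rw [inf_comm W (S : Subgroup L), ← h1, ← h2] at h3
  have hpos : 0 < Nat.card (S : Subgroup L) * Nat.card ↥((S : Subgroup L) ⊓ W) :=
    mul_pos Nat.card_pos Nat.card_pos
  have he : ((S : Subgroup L) ⊓ W).relIndex W = (S : Subgroup L).relIndex (W ⊔ S) :=
    Nat.eq_of_mul_eq_mul_left hpos (by linarith [h3])
  rw [he]
  exact Subgroup.relIndex_dvd_index_of_le le_sup_right

/-- `L = O_{p'}(L) N_L(R ∩ O_{p',p}(L))` for a Sylow subgroup `R`. -/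
theorem frattini_pPrimeP {L : Type*} [Group L] [Finite L] (S : Sylow p L) :
    Subgroup.normalizer (((S : Subgroup L) ⊓ Cfsg.pPrimePCore p L : Subgroup L) : Set L) ⊔
      Cfsg.pPrimeCore p L = ⊤ := by
  set W := Cfsg.pPrimePCore p L
  haveI : W.Normal := PCore.pPrimePCore_normal p L
  set D := (S : Subgroup L) ⊓ W
  have hD : IsPGroup p (D.subgroupOf W) := (S.isPGroup'.to_le inf_le_left).comap_subtype
  set P : Sylow p W := hD.toSylow (inf_normal_sylow_not_dvd S W)
  have hP : (P : Subgroup W).map W.subtype = D := Subgroup.map_subgroupOf_eq_of_le inf_le_right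
  have hW : Cfsg.pPrimeCore p L ⊔ (P : Subgroup W).map W.subtype = W := PCore.sylow_pPrimePCore_sup P
  rw [hP] at hW
  have h := Sylow.normalizer_sup_eq_top P
  rw [hP] at h
  refine top_unique (h.symm.trans_le (sup_le le_sup_left ?_))
  rw [← hW]
  exact sup_le le_sup_right (Subgroup.le_normalizer.trans le_sup_left)

/-- The same, for a subgroup `L` and a maximal `p`-subgroup `R` of it. -/
theorem frattini_inf {L R : Subgroup G} (hR : IsPGroup p R) (hRL : R ≤ L)
    (hmax : ∀ S : Subgroup G, IsPGroup p S → S ≤ L → R ≤ S → S = R) :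
    ∃ D : Subgroup G, D ≤ R ∧ D = R ⊓ (Cfsg.pPrimePCore p L).map L.subtype ∧
      L ≤ coreOf p L ⊔ (L ⊓ Subgroup.normalizer (D : Set G)) := by
  obtain ⟨S, hS⟩ := exists_sylow_eq hR hRL hmax
  refine ⟨_, inf_le_left, rfl, ?_⟩
  have hD : ((S : Subgroup L) ⊓ Cfsg.pPrimePCore p L).map L.subtype =
      R ⊓ (Cfsg.pPrimePCore p L).map L.subtype := by
    rw [Subgroup.map_inf _ _ _ L.subtype_injective, hS]
  conv_lhs => rw [← L.range_subtype, MonoidHom.range_eq_map, ← frattini_pPrimeP S]
  rw [Subgroup.map_sup]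
  refine sup_le ((le_inf (Subgroup.map_subtype_le _) ?_).trans le_sup_right) le_sup_left
  rw [← hD]
  exact Subgroup.le_normalizer_map _

/-- `L = O_{p'}(L) N_L(Z(J(R)))`. -/
theorem frattini_Z {L R : Subgroup G} [Group.IsSolvable L] (hodd : Odd (Nat.card L)) (hR : IsPGroup p R)
    (hRL : R ≤ L) (hmax : ∀ S : Subgroup G, IsPGroup p S → S ≤ L → R ≤ S → S = R) :
    L ≤ coreOf p L ⊔ (L ⊓ Subgroup.normalizer (ZJCenter.Z p R : Set G)) := by
  obtain ⟨S, hS⟩ := exists_sylow_eq hR hRL hmax
  have hn := Cfsg.Agent.S1458.result hodd p S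
  rw [ZJCenter.centerThompsonOf_eq] at hn
  set ZL := ZJCenter.Z p (S : Subgroup L)
  set O := Cfsg.pPrimeCore p L
  haveI hWn : (ZL ⊔ O).Normal := hn
  haveI : O.Normal := Cfsg.pPrimeCore_normal p L
  set W := ZL ⊔ O
  have hZp : IsPGroup p ZL := S.isPGroup'.to_le (ZJCenter.Z_le _)
  have hinf : O ⊓ ZL = ⊥ := by
    rw [inf_comm]
    exact PCore.inf_eq_bot_of_isPGroup_of_coprime hZp (PCore.pPrimeCore_coprime p L)
  have hidx : ¬ p ∣ (ZL.subgroupOf W).index := by
    show ¬ p ∣ ZL.relIndex W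
    have h1 := Hall.card_sup_mul_card_inf O ZL
    rw [hinf, Subgroup.card_bot, mul_one, sup_comm] at h1
    have h2 := Subgroup.relIndex_mul_relIndex ⊥ ZL W bot_le le_sup_left
    simp only [Subgroup.relIndex_bot_left] at h2
    rw [h1, mul_comm (Nat.card O)] at h2
    rw [Nat.eq_of_mul_eq_mul_left Nat.card_pos h2]
    exact hp.out.coprime_iff_not_dvd.1 (PCore.pPrimeCore_coprime p L).symm
  set P : Sylow p W := (hZp.comap_subtype : IsPGroup p (ZL.subgroupOf W)).toSylow hidx
  have hP : (P : Subgroup W).map W.subtype = ZL := Subgroup.map_subgroupOf_eq_of_le le_sup_left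
  have h := Sylow.normalizer_sup_eq_top P
  rw [hP] at h
  have h' : Subgroup.normalizer (ZL : Set L) ⊔ O = ⊤ :=
    top_unique (h.symm.trans_le (sup_le le_sup_left
      (sup_le (Subgroup.le_normalizer.trans le_sup_left) le_sup_right)))
  have hZ : ZL.map L.subtype = ZJCenter.Z p R := by
    rw [← hS]
    exact (ZJCenter.Z_map L.subtype fun x _ hx => L.subtype_injective (hx.trans (map_one _).symm)).symm
  conv_lhs => rw [← L.range_subtype, MonoidHom.range_eq_map, ← h']
  rw [Subgroup.map_sup]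
  refine sup_le ((le_inf (Subgroup.map_subtype_le _) ?_).trans le_sup_right) le_sup_left
  rw [← hZ]
  exact Subgroup.le_normalizer_map _

theorem normalizer_le_normalizer_Z (R : Subgroup G) :
    Subgroup.normalizer (R : Set G) ≤ Subgroup.normalizer (ZJCenter.Z p R : Set G) := by
  intro g hg
  rw [Subgroup.mem_normalizer_iff_map_conj_eq] at hg ⊢
  calc (ZJCenter.Z p R).map (MulAut.conj g).toMonoidHom
      = ZJCenter.Z p (R.map (MulAut.conj g).toMonoidHom) :=
        (ZJCenter.Z_map _ fun x _ hx => (MulAut.conj g).injective (hx.trans (map_one _).symm)).symm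
    _ = ZJCenter.Z p R := congrArg _ hg

/-- Abelian normal subgroups of a maximal `p`-subgroup of `L` lie in `O_{p',p}(L)`. -/
theorem le_pPrimePCore_map {L R A : Subgroup G} [Group.IsSolvable L] (hodd : Odd (Nat.card L))
    (hR : IsPGroup p R) (hRL : R ≤ L) (hmax : ∀ S : Subgroup G, IsPGroup p S → S ≤ L → R ≤ S → S = R)
    (hAR : A ≤ R) (hAc : IsMulCommutative A) (hn : R ≤ Subgroup.normalizer (A : Set G)) :
    A ≤ (Cfsg.pPrimePCore p L).map L.subtype := by
  obtain ⟨S, hS⟩ := exists_sylow_eq hR hRL hmax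
  rw [← Subgroup.map_subgroupOf_eq_of_le (hAR.trans hRL)]
  haveI := hAc
  refine Subgroup.map_mono (Cfsg.Agent.S1457.result hodd p S _ ?_ ?_ ?_)
  · intro a ha
    have h1 : (a : G) ∈ (S : Subgroup L).map L.subtype := hS.symm ▸ hAR (Subgroup.mem_subgroupOf.1 ha)
    obtain ⟨b, hb, hba⟩ := h1
    rwa [L.subtype_injective hba] at hb
  · exact ⟨⟨fun x y => Subtype.ext (Subtype.ext
      (setLike_mul_comm (Subgroup.mem_subgroupOf.1 x.2) (Subgroup.mem_subgroupOf.1 y.2)))⟩⟩
  · intro s hs
    have hsR : (s : G) ∈ R := hS ▸ ⟨s, hs, rfl⟩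
    refine Subgroup.mem_normalizer_iff.2 fun a => ?_
    simp only [Subgroup.mem_subgroupOf, Subgroup.coe_mul, Subgroup.coe_inv]
    exact Subgroup.mem_normalizer_iff.1 (hn hsR) a

end CfsgLib.Uniq
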