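import Cfsg.Agent.Uniqueness.Chain
import Cfsg.Agent.S1481
import Cfsg.Agent.S1482

/-!
Maximal subgroups whose Fitting subgroup has rank three at some prime.
-/

set_option autoImplicit false
set_option linter.unusedSectionVars false
set_option linter.style.haveILetI false

namespace CfsgLib.Uniq

open CfsgLib.BenderUnique

universe u

variable {G : Type u} [Group G] [Finite G] {p : ℕ} [hp : Fact p.Prime]

theorem le_normalizer_map_conj {X Q : Subgroup G} (hX : X ≤ Subgroup.normalizer (Q : Set G)) {g : G}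
    (hg : g ∈ Subgroup.normalizer (X : Set G)) :
    X ≤ Subgroup.normalizer ((Q.map (MulAut.conj g).toMonoidHom : Subgroup G) : Set G) := by
  rw [Subgroup.mem_normalizer_iff_map_conj_eq] at hg
  exact hg.ge.trans ((Subgroup.map_mono hX).trans (Subgroup.le_normalizer_map _))

theorem mem_normalizer_of_map_le {Q : Subgroup G} {g : G} (h : Q.map (MulAut.conj g).toMonoidHom ≤ Q) :
    g ∈ Subgroup.normalizer (Q : Set G) := by
  rw [Subgroup.mem_normalizer_iff_map_conj_eq]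
  exact Subgroup.eq_of_le_of_card_ge h (Subgroup.card_map_of_injective (MulAut.conj g).injective).ge

theorem inf_centralizer_fittingOf_le (hG : Cfsg.IsMinSimpleOddOrder G) {M : Subgroup G} (hM : IsCoatom M) :
    M ⊓ Subgroup.centralizer (Cfsg.fittingOf M : Set G) ≤ Cfsg.fittingOf M := fun _ hx =>
  haveI := isSolvable_of_ne_top hG hM.1
  mem_fittingOf_of_centralizer hx.1 hx.2

theorem fittingOf_ne_bot (hG : Cfsg.IsMinSimpleOddOrder G) {M : Subgroup G} (hM : IsCoatom M) :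
    Cfsg.fittingOf M ≠ ⊥ := by
  intro h
  refine coatom_ne_bot hG hM (le_bot_iff.1 ?_)
  have h1 := inf_centralizer_fittingOf_le hG hM
  rw [h] at h1
  refine le_trans (le_inf le_rfl fun x _ => Subgroup.mem_centralizer_iff.2 fun y hy => ?_) h1
  rw [Subgroup.mem_bot.1 hy, one_mul, mul_one]

theorem normalizer_fittingOf_eq (hG : Cfsg.IsMinSimpleOddOrder G) {M : Subgroup G} (hM : IsCoatom M) :
    Subgroup.normalizer (Cfsg.fittingOf M : Set G) = M :=
  normalizer_eq_of_isCoatom hG hM (fittingOf_le M) (fittingOf_ne_bot hG hM)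
    (Subgroup.le_normalizer.trans (normalizer_le_normalizer_fittingOf M))

/-- A `q`-subgroup normalized by `M` is trivial when `q` does not divide the order of `F(M)`. -/
theorem eq_bot_of_le_normalizer (hG : Cfsg.IsMinSimpleOddOrder G) {M Q : Subgroup G} (hM : IsCoatom M)
    {q : ℕ} [Fact q.Prime] (hq : ¬ q ∣ Nat.card (Cfsg.fittingOf M)) (hQ : IsPGroup q Q)
    (hn : M ≤ Subgroup.normalizer (Q : Set G)) : Q = ⊥ := by
  by_contra h1
  have hN := (hM.le_iff.1 hn).resolve_left (normalizer_ne_top hG h1 (pgroup_ne_top hG hQ))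
  have hQM : Q ≤ M := hN ▸ Subgroup.le_normalizer
  exact hq ((dvd_card_of_ne_bot (p := q) hQ h1).trans
    (Subgroup.card_dvd_of_le ((le_pCoreOf hQM hn hQ).trans (pCoreOf_le_fittingOf q M))))

/-- The normalizer condition inside a nilpotent subgroup. -/
theorem le_of_normalizer_condition {F S : Subgroup G} [Group.IsNilpotent F]
    (h : ∀ g ∈ F, g ∈ Subgroup.normalizer ((F ⊓ S : Subgroup G) : Set G) → g ∈ S) : F ≤ S := by
  by_contra hle
  have hlt : (F ⊓ S).subgroupOf F < ⊤ :=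
    lt_top_iff_ne_top.2 fun h' => hle ((Subgroup.subgroupOf_eq_top.1 h').trans inf_le_right)
  obtain ⟨x, hx, hxS⟩ := SetLike.exists_of_lt (Group.normalizerCondition_of_isNilpotent _ hlt)
  refine hxS (Subgroup.mem_subgroupOf.2 ⟨x.2, h x x.2 ?_⟩)
  rw [← Subgroup.subgroupOf_normalizer_eq inf_le_left] at hx
  exact hx

section multi

variable {M A₀ : Subgroup G}

theorem common_invariant (hG : Cfsg.IsMinSimpleOddOrder G) (hM : IsCoatom M)
    (hF2 : 2 ≤ (Nat.card (Cfsg.fittingOf M)).primeFactors.card) (hA₀e : Cfsg.IsElementaryAbelian p A₀)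
    (hA₀ : A₀ ≤ Cfsg.fittingOf M) {R : Subgroup G} (hR : R ≠ ⊤)
    (hn : Cfsg.fittingOf M ⊓ Subgroup.centralizer (A₀ : Set G) ≤ Subgroup.normalizer (R : Set G))
    {q : ℕ} [Fact q.Prime] (hq : ¬ q ∣ Nat.card (Cfsg.fittingOf M))
    {Q₁ Q₂ : Subgroup G} (hQ₁R : Q₁ ≤ R) (hQ₂R : Q₂ ≤ R) (hQ₁ : IsPGroup q Q₁) (hQ₂ : IsPGroup q Q₂)
    (hn₁ : Cfsg.fittingOf M ⊓ Subgroup.centralizer (A₀ : Set G) ≤ Subgroup.normalizer (Q₁ : Set G))
    (hn₂ : Cfsg.fittingOf M ⊓ Subgroup.centralizer (A₀ : Set G) ≤ Subgroup.normalizer (Q₂ : Set G)) :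
    ∃ T : Subgroup G, IsPGroup q T ∧
      Cfsg.fittingOf M ⊓ Subgroup.centralizer (A₀ : Set G) ≤ Subgroup.normalizer (T : Set G) ∧
      Q₁ ≤ T ∧ Q₂ ≤ T := by
  set F := Cfsg.fittingOf M with hF
  set M₀ := F ⊓ Subgroup.centralizer (A₀ : Set G) with hM₀
  obtain ⟨r, hr⟩ := Finset.card_pos.1 (lt_of_lt_of_le two_pos hF2)
  obtain ⟨hr, hrd, -⟩ := Nat.mem_primeFactors.1 hr
  haveI := Fact.mk hr
  have hT1 : Cfsg.pCoreOf r M ≠ ⊥ := fun h => centerPart_ne_bot M hrd (eq_bot_iff.2 (inf_le_left.trans h.le))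
  have hloc : Cfsg.IsLocalSubgroup M := ⟨r, Cfsg.pCoreOf r M, hr, isPGroup_pCoreOf r M, hT1,
    (normalizer_eq_of_isCoatom hG hM (pCoreOf_le r M) hT1
      (Subgroup.le_normalizer.trans (normalizer_le_normalizer_pCoreOf r M))).symm⟩
  have hmax : ∀ L : Subgroup G, Cfsg.IsLocalSubgroup L → M ≤ L → L = M := by
    rintro _ ⟨t, T, ht, hT, hT1, rfl⟩ hle
    haveI := Fact.mk ht
    exact (hM.le_iff.1 hle).resolve_left (normalizer_ne_top hG hT1 (pgroup_ne_top hG hT))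
  have hA₀C : A₀ ≤ M₀ := le_inf hA₀ (elementary_le_centralizer hA₀e)
  have hCM : F ⊓ Subgroup.centralizer (M₀ : Set G) ≤ M₀ :=
    le_inf inf_le_left (inf_le_right.trans (Subgroup.centralizer_le hA₀C))
  have hX : M ⊓ Subgroup.centralizer (F : Set G) ≤ Subgroup.normalizer (R : Set G) :=
    le_trans (le_inf (inf_centralizer_fittingOf_le hG hM) (inf_le_right.trans (Subgroup.centralizer_le hA₀))) hn
  obtain ⟨Q, -, huniq⟩ := Cfsg.Agent.S1481.result M hloc hmax hF2 M₀ inf_le_left hCM R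
    (isSolvable_of_ne_top hG hR) hn hX q hq
  have hmem : ∀ Q' : Subgroup G, Q' ≤ R → IsPGroup q Q' → M₀ ≤ Subgroup.normalizer (Q' : Set G) →
      Q' ∈ Cfsg.invSubgroups R M₀ {q} := fun Q' h1 h2 h3 =>
    ⟨h1, (Signalizer.mem_invSubgroups_top_singleton.2 ⟨h2, h3⟩).2.1, h3⟩
  have hall : ∀ T ∈ Cfsg.maxInvSubgroups R M₀ {q}, ∀ T' ∈ Cfsg.maxInvSubgroups R M₀ {q},
      T' ≤ Cfsg.piCoreOf (Cfsg.primesNotDvd (Nat.card F)) R := by
    intro T _ T' hT'
    obtain ⟨Q', ⟨hQ'1, hQ'2⟩, -⟩ := Cfsg.Agent.S1481.result M hloc hmax hF2 M₀ inf_le_left hCM R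
      (isSolvable_of_ne_top hG hR) hn hX q hq
    exact (hQ'2 T' hT').1
  obtain ⟨T₁, hT₁, hle₁⟩ := Signalizer.exists_max_ge (hmem Q₁ hQ₁R hQ₁ hn₁)
  obtain ⟨T₂, hT₂, hle₂⟩ := Signalizer.exists_max_ge (hmem Q₂ hQ₂R hQ₂ hn₂)
  obtain ⟨Q', ⟨hQ'1, hQ'2⟩, hQ'3⟩ := Cfsg.Agent.S1481.result M hloc hmax hF2 M₀ inf_le_left hCM R
    (isSolvable_of_ne_top hG hR) hn hX q hq
  have e₁ : T₁ = Q' := hQ'3 T₁ ⟨hT₁, hQ'2⟩
  have e₂ : T₂ = Q' := hQ'3 T₂ ⟨hT₂, hQ'2⟩
  refine ⟨T₁, ?_, hT₁.1.2.2, hle₁, (e₁.trans e₂.symm) ▸ hle₂⟩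
  exact (Signalizer.mem_invSubgroups_top_singleton.1 ⟨le_top, hT₁.1.2.1, hT₁.1.2.2⟩).1

theorem exists_hyperplane_fixing (hA₀e : Cfsg.IsElementaryAbelian p A₀) (hA1 : A₀ ≠ ⊥) {Q : Subgroup G}
    (hn : A₀ ≤ Subgroup.normalizer (Q : Set G)) (hc : (Nat.card A₀).Coprime (Nat.card Q)) (hQ : Q ≠ ⊥) :
    ∃ B : Subgroup G, B ≤ A₀ ∧ B.relIndex A₀ = p ∧ Q ⊓ Subgroup.centralizer (B : Set G) ≠ ⊥ := by
  by_contra hcon
  push Not at hcon
  haveI := hA₀e.1
  exact hQ (le_bot_iff.1 (CoprimeAction.le_of_hyperplane_centralizers_le hA1 hA₀e.2 hn hc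
    fun B hB hi => (hcon B hB hi).le))

theorem inf_ne_bot_of_relIndex {V B₁ B₂ : Subgroup G} (hV : p ^ 3 ≤ Nat.card V) (h₁ : B₁ ≤ V) (h₂ : B₂ ≤ V)
    (hi₁ : B₁.relIndex V = p) (hi₂ : B₂.relIndex V = p) : B₁ ⊓ B₂ ≠ ⊥ := by
  intro h
  have hmul := Subgroup.relIndex_mul_relIndex (⊥ : Subgroup G) B₂ V bot_le h₂
  rw [Subgroup.relIndex_bot_left, Subgroup.relIndex_bot_left, hi₂] at hmul
  have hle : B₁.relIndex B₂ ≤ p := hi₁ ▸ Subgroup.relIndex_le_of_le_right h₂ (by rw [hi₁]; exact hp.out.ne_zero)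
  rw [← Subgroup.inf_relIndex_right, h, Subgroup.relIndex_bot_left] at hle
  rw [← hmul] at hV
  have := hV.trans (Nat.mul_le_mul_right _ hle)
  nlinarith [hp.out.one_lt, pow_succ p 2, sq p]

/-- Part (a): the Fitting subgroup is not primary. -/
theorem unique_inf_centralizer (hG : Cfsg.IsMinSimpleOddOrder G) (hM : IsCoatom M) (hA₀ : A₀ ≤ Cfsg.fittingOf M)
    (hA₀e : Cfsg.IsElementaryAbelian p A₀) (hA₀3 : p ^ 3 ≤ Nat.card A₀)
    (hnp : ¬ IsPGroup p ↥(Cfsg.fittingOf M)) :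
    Cfsg.InUniqueMaximal (Cfsg.fittingOf M ⊓ Subgroup.centralizer (A₀ : Set G)) := by
  set F := Cfsg.fittingOf M with hF
  set M₀ := F ⊓ Subgroup.centralizer (A₀ : Set G) with hM₀
  have hA1 : A₀ ≠ ⊥ := fun h => by
    rw [h, Subgroup.card_bot] at hA₀3
    exact absurd hA₀3 (not_le.2 (Nat.one_lt_pow (by norm_num) hp.out.one_lt))
  have hpF : p ∣ Nat.card F :=
    (dvd_card_of_ne_bot (isPGroup_of_elementary hA₀e) hA1).trans (Subgroup.card_dvd_of_le hA₀)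
  have hF2 : 2 ≤ (Nat.card F).primeFactors.card := by
    obtain ⟨r, hr, hrd, hrp⟩ : ∃ r : ℕ, r.Prime ∧ r ∣ Nat.card F ∧ r ≠ p := by
      by_contra hcon
      push Not at hcon
      exact hnp (IsPGroup.of_card (Nat.eq_prime_pow_of_unique_prime_dvd Nat.card_pos.ne'
        fun {d} hd hdd => hcon d hd hdd))
    calc 2 = ({p, r} : Finset ℕ).card := (Finset.card_pair hrp.symm).symm
      _ ≤ _ := Finset.card_le_card (by
        intro x hx
        rcases Finset.mem_insert.1 hx with rfl | hx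
        · exact Nat.mem_primeFactors.2 ⟨hp.out, hpF, Nat.card_pos.ne'⟩
        · rw [Finset.mem_singleton.1 hx]
          exact Nat.mem_primeFactors.2 ⟨hr, hrd, Nat.card_pos.ne'⟩)
  have hA₀C : A₀ ≤ M₀ := le_inf hA₀ (elementary_le_centralizer hA₀e)
  have hZ : F ⊓ Subgroup.centralizer (F : Set G) ≤ M₀ :=
    le_inf inf_le_left (inf_le_right.trans (Subgroup.centralizer_le hA₀))
  have hM₀M : M₀ ≤ M := inf_le_left.trans (fittingOf_le M)
  have hnoq : ∀ q : ℕ, q.Prime → ¬ q ∣ Nat.card F → ∀ Q : Subgroup G, IsPGroup q Q →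
      M₀ ≤ Subgroup.normalizer (Q : Set G) → Q = ⊥ := by
    intro q hq hqF Q hQ hQn
    haveI := Fact.mk hq
    have hqp : q ≠ p := fun e => hqF (e ▸ hpF)
    have hmemiff : ∀ T : Subgroup G, T ∈ Cfsg.invSubgroups ⊤ M₀ {q} ↔
        IsPGroup q T ∧ M₀ ≤ Subgroup.normalizer (T : Set G) := fun T => Signalizer.mem_invSubgroups_top_singleton
    have hstep : ∀ T₁ T₂ T₃ : Subgroup G, T₁ ⊓ T₂ < T₁ ⊓ T₃ →
        Nat.card G - Nat.card ↥(T₁ ⊓ T₃) < Nat.card G - Nat.card ↥(T₁ ⊓ T₂) := fun T₁ T₂ T₃ hlt => by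
      have h1 := card_lt_of_lt hlt
      have h2 := Subgroup.card_le_card_group (T₁ ⊓ T₃)
      omega
    have hmeet : ∀ n : ℕ, ∀ T₁ ∈ Cfsg.maxInvSubgroups ⊤ M₀ {q}, ∀ T₂ ∈ Cfsg.maxInvSubgroups ⊤ M₀ {q},
        Nat.card G - Nat.card ↥(T₁ ⊓ T₂) = n → T₁ ⊓ T₂ ≠ ⊥ → T₁ = T₂ := by
      intro n
      induction n using Nat.strong_induction_on with
      | _ n ih =>
      intro T₁ h₁ T₂ h₂ hn hD
      subst hn
      obtain ⟨hT₁, hn₁⟩ := (hmemiff _).1 h₁.1
      obtain ⟨hT₂, hn₂⟩ := (hmemiff _).1 h₂.1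
      rcases (inf_le_left : T₁ ⊓ T₂ ≤ T₁).eq_or_lt with he | hlt₁
      · exact (h₁.2 _ h₂.1 (inf_eq_left.1 he)).symm
      rcases (inf_le_right : T₁ ⊓ T₂ ≤ T₂).eq_or_lt with he | hlt₂
      · exact h₂.2 _ h₁.1 (inf_eq_right.1 he)
      set D := T₁ ⊓ T₂ with hDdef
      set N := Subgroup.normalizer (D : Set G) with hN
      have hM₀D : M₀ ≤ N := Signalizer.le_normalizer_inf hn₁ hn₂
      have hM₀N : M₀ ≤ Subgroup.normalizer (N : Set G) := hM₀D.trans Subgroup.le_normalizer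
      have hNtop : N ≠ ⊤ := normalizer_ne_top hG hD (pgroup_ne_top hG (hT₁.to_le inf_le_left))
      obtain ⟨T, hT, hTn, hle₁, hle₂⟩ := common_invariant hG hM hF2 hA₀e hA₀ hNtop hM₀N hqF
        (Q₁ := T₁ ⊓ N) (Q₂ := T₂ ⊓ N) inf_le_right inf_le_right (hT₁.to_le inf_le_left) (hT₂.to_le inf_le_left)
        (Signalizer.le_normalizer_inf hn₁ hM₀N) (Signalizer.le_normalizer_inf hn₂ hM₀N)
      obtain ⟨T₃, h₃, hle₃⟩ := Signalizer.exists_max_ge ((hmemiff T).2 ⟨hT, hTn⟩)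
      have g₁ : D < T₁ ⊓ T₃ := lt_of_lt_of_le (exists_lt_mem_normalizer hT₁ hlt₁)
        (le_inf inf_le_left (hle₁.trans hle₃))
      have g₂ : D < T₂ ⊓ T₃ := lt_of_lt_of_le (exists_lt_mem_normalizer hT₂ hlt₂)
        (le_inf inf_le_left (hle₂.trans hle₃))
      have e₁ := ih _ (hstep T₁ T₂ T₃ g₁) T₁ h₁ T₃ h₃ rfl (ne_bot_of_gt g₁)
      have e₂ := ih _ (by
        have h1 := card_lt_of_lt g₂
        have h2 := Subgroup.card_le_card_group (T₂ ⊓ T₃)
        omega) T₂ h₂ T₃ h₃ rfl (ne_bot_of_gt g₂)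
      exact e₁.trans e₂.symm
    have huniq : ∀ T₁ ∈ Cfsg.maxInvSubgroups ⊤ M₀ {q}, ∀ T₂ ∈ Cfsg.maxInvSubgroups ⊤ M₀ {q}, T₁ = T₂ := by
      intro T₁ h₁ T₂ h₂
      obtain ⟨hT₁, hn₁⟩ := (hmemiff _).1 h₁.1
      obtain ⟨hT₂, hn₂⟩ := (hmemiff _).1 h₂.1
      by_cases hb₁ : T₁ = ⊥
      · exact (h₁.2 _ h₂.1 (hb₁.symm ▸ bot_le)).symm
      by_cases hb₂ : T₂ = ⊥
      · exact h₂.2 _ h₁.1 (hb₂.symm ▸ bot_le)
      have hA₀p := isPGroup_of_elementary hA₀e
      obtain ⟨B₁, hB₁, hi₁, hC₁⟩ := exists_hyperplane_fixing hA₀e hA1 (hA₀C.trans hn₁)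
        (coprime_card_of_isPGroup hA₀p (coprime_of_qgroup hq hqp hT₁)) hb₁
      obtain ⟨B₂, hB₂, hi₂, hC₂⟩ := exists_hyperplane_fixing hA₀e hA1 (hA₀C.trans hn₂)
        (coprime_card_of_isPGroup hA₀p (coprime_of_qgroup hq hqp hT₂)) hb₂
      obtain ⟨a, ha, ha1⟩ :=
        (Subgroup.bot_or_exists_ne_one _).resolve_left (inf_ne_bot_of_relIndex hA₀3 hB₁ hB₂ hi₁ hi₂)
      set N := Subgroup.centralizer ({a} : Set G) with hN
      have hM₀N : M₀ ≤ N := fun x hx => Subgroup.mem_centralizer_singleton_iff.2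
        (Subgroup.mem_centralizer_iff.1 hx.2 a (hB₁ ha.1)).symm
      have hM₀N' : M₀ ≤ Subgroup.normalizer (N : Set G) := hM₀N.trans Subgroup.le_normalizer
      obtain ⟨T, hT, hTn, hle₁, hle₂⟩ := common_invariant hG hM hF2 hA₀e hA₀
        (centralizer_singleton_ne_top hG ha1) hM₀N' hqF (Q₁ := T₁ ⊓ N) (Q₂ := T₂ ⊓ N) inf_le_right inf_le_right
        (hT₁.to_le inf_le_left) (hT₂.to_le inf_le_left)
        (Signalizer.le_normalizer_inf hn₁ hM₀N') (Signalizer.le_normalizer_inf hn₂ hM₀N')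
      obtain ⟨T₃, h₃, hle₃⟩ := Signalizer.exists_max_ge ((hmemiff T).2 ⟨hT, hTn⟩)
      have hne : ∀ (T' B : Subgroup G), a ∈ B → T' ⊓ Subgroup.centralizer (B : Set G) ≠ ⊥ →
          T' ⊓ N ≤ T₃ → T' ⊓ T₃ ≠ ⊥ := fun T' B haB hC hle => ne_bot_of_le_ne_bot hC
        (le_inf inf_le_left ((inf_le_inf_left _ (Subgroup.centralizer_le (Set.singleton_subset_iff.2 haB))).trans hle))
      exact (hmeet _ T₁ h₁ T₃ h₃ rfl (hne T₁ B₁ ha.1 hC₁ (hle₁.trans hle₃))).trans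
        (hmeet _ T₂ h₂ T₃ h₃ rfl (hne T₂ B₂ ha.2 hC₂ (hle₂.trans hle₃))).symm
    obtain ⟨Q₀, hQ₀, hQQ₀⟩ := Signalizer.exists_max_ge ((hmemiff Q).2 ⟨hQ, hQn⟩)
    obtain ⟨hQ₀q, hQ₀n⟩ := (hmemiff _).1 hQ₀.1
    have hle : ∀ T : Subgroup G, IsPGroup q T → M₀ ≤ Subgroup.normalizer (T : Set G) → T ≤ Q₀ := by
      intro T hT hTn
      obtain ⟨T', hT', hTT'⟩ := Signalizer.exists_max_ge ((hmemiff T).2 ⟨hT, hTn⟩)
      exact huniq T' hT' Q₀ hQ₀ ▸ hTT'
    haveI := PrimeAction.fittingOf_nilpotent M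
    have hFn : F ≤ Subgroup.normalizer (Q₀ : Set G) := le_of_normalizer_condition fun g _ hgn =>
      mem_normalizer_of_map_le (hle _ (hQ₀q.map _)
        ((le_inf inf_le_left hQ₀n).trans (le_normalizer_map_conj inf_le_right hgn)))
    have hMn : M ≤ Subgroup.normalizer (Q₀ : Set G) := fun g hg =>
      mem_normalizer_of_map_le (hle _ (hQ₀q.map _) (inf_le_left.trans (le_normalizer_map_conj hFn
        ((normalizer_fittingOf_eq hG hM).symm ▸ hg))))
    exact le_bot_iff.1 (hQQ₀.trans (eq_bot_of_le_normalizer hG hM hqF hQ₀q hMn).le)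
  refine ⟨M, ⟨hM, hM₀M⟩, fun L hL => ?_⟩
  refine Cfsg.Agent.S1482.result hG M hM hF2 M₀ inf_le_left hZ ?_ L hL.1 hL.2
  rintro Y ⟨-, hY, hYn⟩
  have hYc : (Nat.card Y).Coprime p := PCore.coprime_of_not_dvd fun hd => (hY p hp.out hd).2 hpF
  refine le_bot_iff.1 (le_of_invariant_primes (isPGroup_of_elementary hA₀e) hYc (hA₀C.trans hYn)
    fun t ht _ T _ _ _ => ?_)
  haveI := Fact.mk ht
  by_cases htY : t ∣ Nat.card Y
  · have hM₀cop : (Nat.card M₀).Coprime (Nat.card Y) := Nat.coprime_of_dvd fun r hr h1 h2 =>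
      (hY r hr h2).2 (h1.trans (Subgroup.card_dvd_of_le inf_le_left))
    haveI := isSolvable_of_ne_top hG hM.1
    have hsol : Group.IsSolvable M₀ :=
      Group.isSolvable_of_isSolvable_injective (Subgroup.inclusion_injective hM₀M)
    obtain ⟨S, hS⟩ := CoprimeAction.exists_invariant_sylow hYn hM₀cop (Or.inl hsol) t
    have hb := hnoq t ht (hY t ht htY).2 _ (S.isPGroup'.map _) hS
    rw [Subgroup.map_eq_bot_iff_of_injective _ Y.subtype_injective] at hb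
    exact absurd hb (S.ne_bot_of_dvd_card htY)
  · have hd : ¬ t ∣ Nat.card T := fun hd => htY (hd.trans (Subgroup.card_dvd_of_le ‹T ≤ Y›))
    by_contra hne
    exact hd (dvd_card_of_ne_bot (p := t) ‹IsPGroup t T› fun h => hne h.le)

end multi

/-- Part (b): the Fitting subgroup is primary. -/
theorem primary_fitting (hG : Cfsg.IsMinSimpleOddOrder G) {M : Subgroup G} (hM : IsCoatom M)
    (hFp : IsPGroup p ↥(Cfsg.fittingOf M)) (P : Sylow p M) :
    ¬ p ∣ ((P : Subgroup M).map M.subtype).index ∧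
      ∀ A : Subgroup G, Cfsg.IsSCN ((P : Subgroup M).map M.subtype) A → ¬ Cfsg.PRankLE p 2 ↥A →
        A ≤ Cfsg.fittingOf M ∧ Cfsg.InUniqueMaximal A := by
  set F := Cfsg.fittingOf M with hF
  set R := (P : Subgroup M).map M.subtype with hRdef
  have hRp : IsPGroup p R := P.isPGroup'.map _
  have hRM : R ≤ M := Subgroup.map_subtype_le _
  have hFM : F ≤ M := fittingOf_le M
  have hFM' : M ≤ Subgroup.normalizer (F : Set G) := (normalizer_fittingOf_eq hG hM).ge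
  haveI := isSolvable_of_ne_top hG hM.1
  have hmaxM : ∀ S : Subgroup G, IsPGroup p S → S ≤ M → R ≤ S → S = R := by
    intro S hS hSM hle
    have h1 := P.3 (hS.comap_subtype : IsPGroup p (S.subgroupOf M)) (by
      intro x hx
      exact hle ⟨x, hx, rfl⟩)
    rw [hRdef, ← h1]
    exact (Subgroup.map_subgroupOf_eq_of_le hSM).symm
  have hFR : F ≤ R := by
    have h := PCore.pCore_le_sylow P
    exact (le_pCoreOf hFM hFM' hFp).trans (Subgroup.map_mono h)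
  have hR1 : R ≠ ⊥ := ne_bot_of_le_ne_bot (fittingOf_ne_bot hG hM) hFR
  have hK : coreOf p M = ⊥ := by
    have hinf := PCore.inf_eq_bot_of_isPGroup_of_coprime hFp (coreOf_coprime (p := p) M)
    refine le_bot_iff.1 (le_trans ?_ hinf.le)
    refine le_inf (le_trans (le_inf (coreOf_le M) fun x hx => Subgroup.mem_centralizer_iff.2 fun f hf => ?_)
      (inf_centralizer_fittingOf_le hG hM)) le_rfl
    have h1 : f * x * f⁻¹ * x⁻¹ ∈ F ⊓ coreOf p M := by
      refine Subgroup.mem_inf.2 ⟨?_, (coreOf p M).mul_mem ((Subgroup.mem_normalizer_iff.1 (le_normalizer_coreOf M (hFM hf)) x).1 hx) ((coreOf p M).inv_mem hx)⟩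
      rw [show f * x * f⁻¹ * x⁻¹ = f * (x * f⁻¹ * x⁻¹) by group]
      exact mul_mem hf ((Subgroup.mem_normalizer_iff.1 (hFM' (coreOf_le M hx)) f⁻¹).1 (F.inv_mem hf))
    rw [hinf, Subgroup.mem_bot, mul_inv_eq_one, mul_inv_eq_iff_eq_mul] at h1
    exact h1
  have hNR : Subgroup.normalizer (R : Set G) ≤ M := by
    have hle := frattini_Z (odd_card hG M) hRp hRM hmaxM
    rw [hK, bot_sup_eq] at hle
    have hZ1 := ZJCenter.Z_ne_bot hRp hR1
    have hMZ : M ≤ Subgroup.normalizer (ZJCenter.Z p R : Set G) := hle.trans inf_le_right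
    exact (normalizer_le_normalizer_Z R).trans
      (normalizer_eq_of_isCoatom hG hM ((ZJCenter.Z_le R).trans hRM) hZ1 hMZ).le
  have hG' : ∀ S : Subgroup G, IsPGroup p S → R ≤ S → S = R := by
    intro S hS hle
    refine (eq_of_le_of_not_lt hle fun hlt => ?_).symm
    have h1 := exists_lt_mem_normalizer hS hlt
    exact h1.ne (hmaxM _ (hS.to_le inf_le_left) (inf_le_right.trans hNR) h1.le).symm
  let PG : Sylow p G :=
    { toSubgroup := R
      isPGroup' := hRp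
      is_maximal' := fun {S} hS hle => hG' S hS hle }
  refine ⟨PG.not_dvd_index, fun A hA hA3 => ?_⟩
  have hAF : A ≤ F := by
    refine (le_pPrimePCore_map (odd_card hG M) hRp hRM hmaxM hA.1 (isMulCommutative_of_scn hA) hA.2.1).trans ?_
    have hcore : Cfsg.pPrimeCore p M = ⊥ := by
      rwa [coreOf, Subgroup.map_eq_bot_iff_of_injective _ M.subtype_injective] at hK
    rw [PCore.pPrimePCore_eq_pCore hcore]
    exact pCoreOf_le_fittingOf p M
  refine ⟨hAF, ?_⟩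
  have hAp : IsPGroup p A := hRp.to_le hA.1
  have hT := transitivityHypothesis_of_scn hG PG hA hA3
  haveI := PrimeAction.fittingOf_nilpotent M
  refine unique_of_invariant hG hM (hAF.trans hFM) hAp hT.1 fun Y hY hYn =>
    (le_of_invariant_primes (X := (⊥ : Subgroup G)) hAp hY hYn fun q hq hqp T hT' _ hTn => ?_).trans bot_le
  haveI := Fact.mk hq
  obtain ⟨-, htrF, Q₀, hQ₀, hQ₀A⟩ := exists_invariant_max hG PG hA hA3 hq hqp hFp hAF
    ((Hall.Struct.nilpotent_iff_forall_subnormal (G := F)).1 inferInstance _)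
  have huniq : ∀ Q ∈ Cfsg.maxInvSubgroups ⊤ F {q}, Q = Q₀ := by
    intro Q hQ
    obtain ⟨k, hk, he⟩ := htrF Q₀ hQ₀ Q hQ
    have hkF : k ∈ F := inf_centralizer_fittingOf_le hG hM
      ⟨(normalizer_fittingOf_eq hG hM).le (Subgroup.centralizer_le_normalizer _ (Signalizer.piCoreOf_le _ _ hk)),
        Signalizer.piCoreOf_le _ _ hk⟩
    have hk1 : k ∈ F ⊓ Cfsg.piCoreOf (Cfsg.primesNotDvd (Nat.card A)) (Subgroup.centralizer (F : Set G)) :=
      ⟨hkF, hk⟩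
    rw [PCore.inf_eq_bot_of_isPGroup_of_coprime hFp (coprime_of_isPi hAp hT.1 (Signalizer.piCoreOf_isPi _ _)),
      Subgroup.mem_bot] at hk1
    rw [he, hk1, map_one]
    exact Subgroup.map_id _
  obtain ⟨hQ₀q, hQ₀n⟩ := Signalizer.mem_invSubgroups_top_singleton.1 hQ₀.1
  have hMn : M ≤ Subgroup.normalizer (Q₀ : Set G) := fun g hg => by
    obtain ⟨T', hT'', hle⟩ := Signalizer.exists_max_ge (Signalizer.mem_invSubgroups_top_singleton.2
      ⟨hQ₀q.map (MulAut.conj g).toMonoidHom, le_normalizer_map_conj hQ₀n (hFM' hg)⟩)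
    exact mem_normalizer_of_map_le (huniq T' hT'' ▸ hle)
  have hQ0 : Q₀ = ⊥ := eq_bot_of_le_normalizer hG hM (prime_ne_of_mem hq hFp hqp) hQ₀q hMn
  exact (hQ₀A.2 T (Signalizer.mem_invSubgroups_top_singleton.2 ⟨hT', hTn⟩) (hQ0.symm ▸ bot_le)).le.trans hQ0.le

/-- B&G 9.4. -/
theorem allUnique_of_fitting (hG : Cfsg.IsMinSimpleOddOrder G) {M : Subgroup G} (hM : IsCoatom M)
    (h3 : ¬ Cfsg.PRankLE p 2 ↥(Cfsg.fittingOf M)) : AllUnique p G := by
  obtain ⟨E, hEF, hE, hEc⟩ := exists_elem_of_not_prank h3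
  suffices h : ∃ A : Subgroup G, IsMulCommutative A ∧ ¬ Cfsg.PRankLE p 2 A ∧ Cfsg.InUniqueMaximal A by
    obtain ⟨A, hAc, hA3, hAU⟩ := h
    exact fun C hC hCc => unique_elementary_of_unique hG hAc hA3 hAU hC hCc
  by_cases hFp : IsPGroup p ↥(Cfsg.fittingOf M)
  · obtain ⟨S, hS⟩ := IsPGroup.exists_le_sylow
      (hFp.comap_subtype : IsPGroup p ((Cfsg.fittingOf M).subgroupOf M))
    have hFS : Cfsg.fittingOf M ≤ (S : Subgroup M).map M.subtype := by
      rw [← Subgroup.map_subgroupOf_eq_of_le (fittingOf_le M)]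
      exact Subgroup.map_mono hS
    have hSp : IsPGroup p ((S : Subgroup M).map M.subtype) := S.isPGroup'.map _
    obtain ⟨A, hA, hA3⟩ := exists_scn_three (ne_two hG (dvd_card_of_elementary hEc)) hSp
      (fun h => h3 (prankLE_mono hFS h))
    exact ⟨A, isMulCommutative_of_scn hA, hA3, ((primary_fitting hG hM hFp S).2 A hA hA3).2⟩
  · refine ⟨E, hE.1, not_prank_of_elem le_rfl hE (pow_lt_card hEc), ?_⟩
    have hU := unique_inf_centralizer hG hM hEF hE hEc.ge hFp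
    refine (unique_of_commute hG hU hM (inf_le_left.trans (fittingOf_le M)) hE ?_ (le_of_mem_centralizer inf_le_right)).1
    rw [hEc]
    exact lt_self_pow₀ hp.out.one_lt (by norm_num)

end CfsgLib.Uniq
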