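import Cfsg.Agent.Uniqueness.Criterion

/-!
Uniqueness passes along commuting subgroups of rank two.
-/

set_option autoImplicit false
set_option linter.unusedSectionVars false
set_option linter.style.haveILetI false

namespace CfsgLib.Uniq

open CfsgLib.BenderUnique

universe u

variable {G : Type u} [Group G] [Finite G] {p : ℕ} [hp : Fact p.Prime]

theorem ne_bot_of_not_cyclic {B : Subgroup G} (h : ¬ IsCyclic B) : B ≠ ⊥ := by
  rintro rfl
  exact h inferInstance

/-- B&G 9.1 with centralizers. -/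
theorem unique_of_centralizers (hG : Cfsg.IsMinSimpleOddOrder G) {M B : Subgroup G} (hM : IsCoatom M)
    (hBM : B ≤ M) (hB : Cfsg.IsElementaryAbelian p B) (hBnc : ¬ IsCyclic B)
    (h : ∀ b ∈ B, b ≠ 1 → Subgroup.centralizer ({b} : Set G) ≤ M) : Cfsg.InUniqueMaximal B := by
  haveI := hB.1
  exact unique_of_invariant hG hM hBM (isPGroup_of_elementary hB) (ne_bot_of_not_cyclic hBnc) fun Y hY hn =>
    CoprimeAction.le_of_centralizers_le hBnc hn (coprime_card_of_isPGroup (isPGroup_of_elementary hB) hY)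
      fun b hb hb1 => inf_le_right.trans (h b hb hb1)

/-- B&G 9.2. -/
theorem unique_of_commute (hG : Cfsg.IsMinSimpleOddOrder G) {M L E : Subgroup G} (hU : Cfsg.InUniqueMaximal L)
    (hM : IsCoatom M) (hLM : L ≤ M) (hE : Cfsg.IsElementaryAbelian p E) (hEc : p < Nat.card E)
    (hc : E ≤ Subgroup.centralizer (L : Set G)) : Cfsg.InUniqueMaximal E ∧ E ≤ M := by
  have hEM : E ≤ M := hc.trans (centralizer_le_of_unique hG hU hM hLM)
  exact ⟨unique_of_centralizers hG hM hEM hE (not_isCyclic_of_elementary hE hEc)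
    fun b hb hb1 => centralizer_singleton_le_of_unique hG hU hM hLM hb1 (hc hb), hEM⟩

theorem exists_sq_of_not_rankLE {K : Subgroup G} (h : ¬ Cfsg.RankLE 1 K) :
    ∃ r : ℕ, r.Prime ∧ ∃ E : Subgroup G, E ≤ K ∧ Cfsg.IsElementaryAbelian r E ∧ r < Nat.card E := by
  simp only [Cfsg.RankLE, not_forall] at h
  obtain ⟨r, hr, hn⟩ := h
  haveI := Fact.mk hr
  obtain ⟨E, hEK, hE, hEc⟩ := exists_elem_of_not_prank hn
  exact ⟨r, hr, E, hEK, hE, by simpa using pow_lt_card hEc⟩

theorem unique_of_commute' (hG : Cfsg.IsMinSimpleOddOrder G) {L K : Subgroup G} (hU : Cfsg.InUniqueMaximal L)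
    (hKr : ¬ Cfsg.RankLE 1 K) (hc : K ≤ Subgroup.centralizer (L : Set G)) : Cfsg.InUniqueMaximal K := by
  obtain ⟨M, ⟨hM, hLM⟩, -⟩ := id hU
  obtain ⟨r, hr, E, hEK, hE, hEc⟩ := exists_sq_of_not_rankLE hKr
  haveI := Fact.mk hr
  refine unique_mono (unique_of_commute hG hU hM hLM hE hEc (hEK.trans hc)).1 hEK ?_
  exact fun e => hM.1 (top_unique (e.symm.le.trans (hc.trans (centralizer_le_of_unique hG hU hM hLM))))

/-- A normal subgroup of order `p ^ 2` is centralized by a hyperplane of each elementary abelian subgroup. -/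
theorem sq_le_card_inf_centralizer {P E F : Subgroup G} (hP : IsPGroup p P) (hEP : E ≤ P)
    (hEn : P ≤ Subgroup.normalizer (E : Set G)) (hE : Cfsg.IsElementaryAbelian p E) (hEc : Nat.card E = p ^ 2)
    (hFP : F ≤ P) {k : ℕ} (hFc : Nat.card F = p ^ (k + 1)) :
    p ^ k ≤ Nat.card ↥(F ⊓ Subgroup.centralizer (E : Set G)) := by
  haveI hEn' : (E.subgroupOf P).Normal := Subgroup.normal_subgroupOf_of_le_normalizer hEn
  have hne : E.subgroupOf P ≠ ⊥ := by
    intro h
    have h1 := Nat.card_congr (Subgroup.subgroupOfEquivOfLe hEP).toEquiv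
    rw [h, Subgroup.card_bot, hEc] at h1
    exact absurd h1 (Nat.one_lt_pow two_ne_zero hp.out.one_lt).ne
  obtain ⟨z, hz, hz1⟩ := (Subgroup.bot_or_exists_ne_one _).resolve_left (PReduced.inf_center_ne_bot hP hne)
  obtain ⟨hzE, hzc⟩ := Subgroup.mem_inf.1 hz
  rw [Subgroup.mem_subgroupOf] at hzE
  have hzo : orderOf (z : G) = p := orderOf_eq_prime (hE.2 _ hzE) fun e => hz1 (Subtype.ext e)
  have hzcard : Nat.card (Subgroup.zpowers (z : G)) = p := by rw [Nat.card_zpowers, hzo]
  obtain ⟨e, he, hez⟩ : ∃ e ∈ E, e ∉ Subgroup.zpowers (z : G) := by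
    by_contra hcon
    push Not at hcon
    have := Subgroup.card_le_of_le (show E ≤ Subgroup.zpowers (z : G) from hcon)
    rw [hEc, hzcard] at this
    nlinarith [hp.out.one_lt]
  have hgen : E ≤ Subgroup.zpowers (z : G) ⊔ Subgroup.zpowers e := by
    have hlt : Subgroup.zpowers (z : G) < Subgroup.zpowers (z : G) ⊔ Subgroup.zpowers e :=
      lt_of_le_of_ne le_sup_left fun h => hez (h ▸ (le_sup_right : Subgroup.zpowers e ≤ _) (Subgroup.mem_zpowers e))
    have hle : Subgroup.zpowers (z : G) ⊔ Subgroup.zpowers e ≤ E :=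
      sup_le (Subgroup.zpowers_le.2 hzE) (Subgroup.zpowers_le.2 he)
    refine (Subgroup.eq_of_le_of_card_ge hle ?_).ge
    obtain ⟨n, hn⟩ := ((isPGroup_of_elementary hE).to_le hle).exists_card_eq
    have h1 := card_lt_of_lt hlt
    rw [hzcard, hn] at h1
    have hn2 : 2 ≤ n := by
      by_contra h'
      have := Nat.pow_le_pow_right hp.out.pos (show n ≤ 1 by omega)
      rw [pow_one] at this
      omega
    rw [hEc, hn]
    exact Nat.pow_le_pow_right hp.out.pos hn2
  have hsub : F ⊓ Subgroup.centralizer ({e} : Set G) ≤ F ⊓ Subgroup.centralizer (E : Set G) := by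
    intro f hf
    obtain ⟨hfF, hfe⟩ := Subgroup.mem_inf.1 hf
    refine Subgroup.mem_inf.2 ⟨hfF, ?_⟩
    have hle : Subgroup.zpowers (z : G) ⊔ Subgroup.zpowers e ≤ Subgroup.centralizer ({f} : Set G) := by
      rw [sup_le_iff, Subgroup.zpowers_le, Subgroup.zpowers_le]
      exact ⟨Subgroup.mem_centralizer_singleton_iff.2
          (congrArg Subtype.val (Subgroup.mem_center_iff.1 hzc ⟨f, hFP hfF⟩)).symm,
        Subgroup.mem_centralizer_singleton_iff.2 (Subgroup.mem_centralizer_singleton_iff.1 hfe).symm⟩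
    exact Subgroup.mem_centralizer_iff.2 fun x hx => Subgroup.mem_centralizer_singleton_iff.1 (hle (hgen hx))
  have hrel : (Subgroup.centralizer ({e} : Set G)).relIndex F ≤ p := by
    set C := (Subgroup.centralizer ({e} : Set G)).subgroupOf F with hC
    have he1 : e ≠ 1 := fun h => hez (h ▸ one_mem _)
    have hmem : ∀ x : F, (x : G) * e * (x : G)⁻¹ ∈ E ∧ (x : G) * e * (x : G)⁻¹ ≠ 1 := fun x =>
      ⟨(Subgroup.mem_normalizer_iff.1 (hEn (hFP x.2)) e).1 he, by simpa using he1⟩
    let f : F ⧸ C → {y : E // y ≠ 1} := fun q =>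
      ⟨⟨(q.out : G) * e * (q.out : G)⁻¹, (hmem q.out).1⟩, fun h => (hmem q.out).2 (congrArg Subtype.val h)⟩
    have hf : Function.Injective f := by
      intro q q' h
      have h' : (q.out : G) * e * (q.out : G)⁻¹ = (q'.out : G) * e * (q'.out : G)⁻¹ :=
        congrArg (fun y : {y : E // y ≠ 1} => ((y : E) : G)) h
      rw [← QuotientGroup.out_eq' q, ← QuotientGroup.out_eq' q', QuotientGroup.eq]
      refine Subgroup.mem_subgroupOf.2 (Subgroup.mem_centralizer_singleton_iff.2 ?_)
      rw [Subgroup.coe_mul, Subgroup.coe_inv]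
      calc (q.out : G)⁻¹ * q'.out * e = (q.out : G)⁻¹ * ((q'.out : G) * e * (q'.out : G)⁻¹) * q'.out := by group
        _ = e * ((q.out : G)⁻¹ * q'.out) := by rw [← h']; group
    have hlt : Nat.card (F ⧸ C) < Nat.card E := (Nat.card_le_card_of_injective f hf).trans_lt (by
      classical
      haveI := Fintype.ofFinite E
      rw [Nat.card_eq_fintype_card, Nat.card_eq_fintype_card]
      exact Fintype.card_subtype_lt (x := (1 : E)) (by simp))
    obtain ⟨n, hn⟩ := (hP.to_le hFP).index C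
    change C.index ≤ p
    have hlt' : C.index < Nat.card E := hlt
    rw [hn, hEc, Nat.pow_lt_pow_iff_right hp.out.one_lt] at hlt'
    rw [hn]
    exact (Nat.pow_le_pow_right hp.out.pos (show n ≤ 1 by omega)).trans_eq (pow_one p)
  have h2 := Subgroup.relIndex_mul_relIndex (⊥ : Subgroup G) _ F bot_le
    (inf_le_left : F ⊓ Subgroup.centralizer ({e} : Set G) ≤ F)
  rw [Subgroup.relIndex_bot_left, Subgroup.relIndex_bot_left, Subgroup.inf_relIndex_left, hFc] at h2
  refine le_trans ?_ (Subgroup.card_le_of_le hsub)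
  refine Nat.le_of_mul_le_mul_right ?_ hp.out.pos
  calc p ^ k * p = p ^ (k + 1) := (pow_succ p k).symm
    _ = _ := h2.symm
    _ ≤ _ := Nat.mul_le_mul_left _ hrel

/-- B&G 9.3: one uniqueness subgroup of rank three spreads to all of them. -/
theorem unique_elementary_of_unique (hG : Cfsg.IsMinSimpleOddOrder G) {A C : Subgroup G}
    (hAc : IsMulCommutative A) (hA3 : ¬ Cfsg.PRankLE p 2 A) (hAU : Cfsg.InUniqueMaximal A)
    (hC : Cfsg.IsElementaryAbelian p C) (hCc : Nat.card C = p ^ 3) : Cfsg.InUniqueMaximal C := by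
  haveI := hAc
  obtain ⟨M, ⟨hM, hAM⟩, -⟩ := id hAU
  obtain ⟨F, hFA, hF, hFc⟩ := exists_elem_of_not_prank hA3
  obtain ⟨P, hFP⟩ := IsPGroup.exists_le_sylow (isPGroup_of_elementary hF)
  obtain ⟨P', hCP'⟩ := IsPGroup.exists_le_sylow (isPGroup_of_elementary hC)
  obtain ⟨g, hg⟩ := MulAction.exists_smul_eq G P' P
  have hp2 : p ≠ 2 := ne_two hG (dvd_card_of_elementary hFc)
  set C' := C.map (MulAut.conj g).toMonoidHom with hC'def
  have hC'P : C' ≤ P := by
    rintro _ ⟨c, hc, rfl⟩
    rw [← hg]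
    exact ⟨c, hCP' hc, rfl⟩
  have hC' : Cfsg.IsElementaryAbelian p C' := by
    refine ⟨?_, ?_⟩
    · haveI := hC.1; infer_instance
    · rintro _ ⟨a, ha, rfl⟩
      rw [← map_pow, hC.2 a ha, map_one]
  have hC'c : Nat.card C' = p ^ 3 := by
    rw [hC'def, Subgroup.card_map_of_injective (MulAut.conj g).injective, hCc]
  have hP1 : ¬ Cfsg.PRankLE p 1 ↥(P : Subgroup G) :=
    not_prank_of_elem hFP hF (hFc ▸ Nat.pow_lt_pow_right hp.out.one_lt (by norm_num))
  obtain ⟨E₀, hE₀n, hE₀, hE₀c⟩ := exists_normal_elem_sq hp2 P.isPGroup' hP1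
  set E := E₀.map (P : Subgroup G).subtype with hEdef
  have hEP : E ≤ P := Subgroup.map_subtype_le _
  have hEn : (P : Subgroup G) ≤ Subgroup.normalizer (E : Set G) := by
    haveI := hE₀n
    refine le_trans ?_ (Subgroup.le_normalizer_map _)
    rw [Subgroup.normalizer_eq_top (H := E₀), ← MonoidHom.range_eq_map, Subgroup.range_subtype]
  have hE : Cfsg.IsElementaryAbelian p E := by
    refine ⟨?_, ?_⟩
    · haveI := hE₀.1; infer_instance
    · rintro _ ⟨a, ha, rfl⟩
      rw [← map_pow, hE₀.2 a ha, map_one]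
  have hEc : Nat.card E = p ^ 2 := by
    rw [hEdef, Subgroup.card_map_of_injective (Subgroup.subtype_injective _), hE₀c]
  have hplt : p < p ^ 2 := by
    nlinarith [hp.out.one_lt]
  have hUF := (unique_of_commute hG hAU hM hAM (E := F ⊓ Subgroup.centralizer (E : Set G))
    (elementary_of_le hF inf_le_left) (hplt.trans_le (sq_le_card_inf_centralizer P.isPGroup' hEP hEn hE hEc hFP hFc))
    ((inf_le_left.trans hFA).trans (Subgroup.le_centralizer A)))
  have hUE := unique_of_commute hG hUF.1 hM hUF.2 hE (hEc ▸ hplt) (le_of_mem_centralizer inf_le_right)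
  have hUC1 := unique_of_commute hG hUE.1 hM hUE.2 (E := C' ⊓ Subgroup.centralizer (E : Set G))
    (elementary_of_le hC' inf_le_left)
    (hplt.trans_le (sq_le_card_inf_centralizer P.isPGroup' hEP hEn hE hEc hC'P hC'c)) inf_le_right
  have hUC := unique_mono hUC1.1 inf_le_left (pgroup_ne_top hG (isPGroup_of_elementary hC'))
  have hback := unique_conj hUC g⁻¹
  rw [hC'def, Subgroup.map_map] at hback
  have he : (MulAut.conj g⁻¹).toMonoidHom.comp (MulAut.conj g).toMonoidHom = MonoidHom.id G := by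
    ext x
    simp [mul_assoc]
  rwa [he, Subgroup.map_id] at hback

/-- Every elementary abelian subgroup of order `p ^ 3` is a uniqueness subgroup. -/
def AllUnique (p : ℕ) (G : Type u) [Group G] : Prop :=
  ∀ C : Subgroup G, Cfsg.IsElementaryAbelian p C → Nat.card C = p ^ 3 → Cfsg.InUniqueMaximal C

theorem unique_of_prank (h : AllUnique p G) {K : Subgroup G} (hK : K ≠ ⊤) (h3 : ¬ Cfsg.PRankLE p 2 K) :
    Cfsg.InUniqueMaximal K := by
  obtain ⟨E, hEK, hE, hEc⟩ := exists_elem_of_not_prank h3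
  exact unique_mono (h E hE hEc) hEK hK

theorem unique_of_centralizer_prank (hG : Cfsg.IsMinSimpleOddOrder G) (h : AllUnique p G) {K : Subgroup G}
    (hK : ¬ Cfsg.RankLE 1 K) (h3 : ¬ Cfsg.PRankLE p 2 ↥(Subgroup.centralizer (K : Set G))) :
    Cfsg.InUniqueMaximal K := by
  obtain ⟨E, hEC, hE, hEc⟩ := exists_elem_of_not_prank h3
  exact unique_of_commute' hG (h E hE hEc) hK (le_of_mem_centralizer hEC)

theorem not_rankLE_of_elem {k : ℕ} {K E : Subgroup G} (hEK : E ≤ K) (hE : Cfsg.IsElementaryAbelian p E)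
    (hlt : p ^ k < Nat.card E) : ¬ Cfsg.RankLE k K := fun h => not_prank_of_elem hEK hE hlt (h p hp.out)

end CfsgLib.Uniq
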