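import Cfsg.Agent.Uniqueness.Scn

/-!
The uniqueness theorem for a minimal simple group of odd order.
-/

set_option autoImplicit false
set_option linter.unusedSectionVars false
set_option linter.style.haveILetI false

namespace CfsgLib.Uniq

open CfsgLib.BenderUnique
open scoped commutatorElement

universe u

variable {G : Type u} [Group G] [Finite G] {p : ℕ} [hp : Fact p.Prime]

/-- The map of `M` into the automorphisms of a normal subgroup kills the `q'`-elements of `M'` in the narrow case. -/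
theorem le_centralizer_pCoreOf_of_narrow {M P : Subgroup G} {q : ℕ} [Fact q.Prime] (hqp : q ≠ p) (hq2 : q ≠ 2)
    (hodd : Odd (Nat.card M)) (hP : IsPGroup p P) (hPM : P ≤ ⁅M, M⁆)
    (hn : Cfsg.IsNarrow q ↥(Cfsg.pCore q M)) : P ≤ Subgroup.centralizer (Cfsg.pCoreOf q M : Set G) := by
  intro a ha
  have ha' := hPM ha
  rw [← Subgroup.map_subtype_commutator] at ha'
  obtain ⟨m, hm, hma⟩ := ha'
  haveI : (Cfsg.pCore q M).Normal := Cfsg.pCore_normal q _
  obtain ⟨n, hn'⟩ := (OddFitting.small_of_narrow hn).action hq2 (Components.pCore_isPGroup q) hodd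
    (MulAut.conjNormal : M →* MulAut (Cfsg.pCore q M)) hm
  obtain ⟨k, hk⟩ := IsPGroup.iff_orderOf.1 hP ⟨a, ha⟩
  rw [Subgroup.orderOf_mk] at hk
  have hmk : m ^ p ^ k = 1 := Subtype.ext (by
    have h2 : (m : G) = a := hma
    rw [Subgroup.coe_pow, h2, ← hk]
    exact pow_orderOf_eq_one a)
  have h1 : (MulAut.conjNormal m : MulAut (Cfsg.pCore q M)) = 1 :=
    orderOf_eq_one_iff.1 (Nat.eq_one_of_dvd_coprimes
      (Nat.Coprime.pow n k ((Nat.coprime_primes Fact.out hp.out).2 hqp))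
      (orderOf_dvd_of_pow_eq_one hn') (orderOf_dvd_of_pow_eq_one (by rw [← map_pow, hmk, map_one])))
  refine Subgroup.mem_centralizer_iff.2 ?_
  rintro _ ⟨s, hs, rfl⟩
  have h := congrArg Subtype.val (DFunLike.congr_fun h1 (⟨s, hs⟩ : Cfsg.pCore q M))
  rw [MulAut.conjNormal_apply, MulAut.one_apply] at h
  have h' := mul_inv_eq_iff_eq_mul.1 h
  rw [← hma]
  exact (congrArg Subtype.val h').symm

/-- B&G 9.5 and 9.3: every elementary abelian subgroup of order `p ^ 3` lies in only one maximal subgroup. -/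
theorem allUnique (hG : Cfsg.IsMinSimpleOddOrder G) : AllUnique p G := by
  by_cases hgood : ∃ M : Subgroup G, IsCoatom M ∧ ¬ Cfsg.PRankLE p 2 ↥(Cfsg.fittingOf M)
  · obtain ⟨M, hM, h3⟩ := hgood
    exact allUnique_of_fitting hG hM h3
  push Not at hgood
  intro C₀ hC₀ hC₀c
  have hp2 : p ≠ 2 := ne_two hG (dvd_card_of_elementary hC₀c)
  obtain ⟨P, hC₀P⟩ := IsPGroup.exists_le_sylow (isPGroup_of_elementary hC₀)
  have hP3 : ¬ Cfsg.PRankLE p 2 ↥(P : Subgroup G) := not_prank_of_elem hC₀P hC₀ (pow_lt_card hC₀c)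
  obtain ⟨A, hA, hA3⟩ := exists_scn_three hp2 P.isPGroup' hP3
  haveI := isMulCommutative_of_scn hA
  have hAp : IsPGroup p A := P.isPGroup'.to_le hA.1
  have hT := transitivityHypothesis_of_scn hG P hA hA3
  obtain ⟨V, hVA, hV, hVc⟩ := exists_elem_of_not_prank hA3
  haveI := hV.1
  have hVp := isPGroup_of_elementary hV
  have hplt3 : p < Nat.card V := hVc ▸ lt_self_pow₀ hp.out.one_lt (by norm_num)
  have hP1 : (P : Subgroup G) ≠ ⊥ := fun h => hT.1 (le_bot_iff.1 (h ▸ hA.1))
  suffices hU : Cfsg.InUniqueMaximal A from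
    unique_elementary_of_unique hG inferInstance hA3 hU hC₀ hC₀c
  set N₀ := Subgroup.normalizer (ZJCenter.Z p (P : Subgroup G) : Set G) with hN₀
  obtain ⟨M, hM, hN₀M⟩ := exists_coatom_ge (normalizer_ne_top hG (ZJCenter.Z_ne_bot P.isPGroup' hP1)
    (fun e => pgroup_ne_top hG P.isPGroup' (top_unique (e.symm.le.trans (ZJCenter.Z_le (P : Subgroup G))))))
  haveI := isSolvable_of_ne_top hG hM.1
  have hPM' : (P : Subgroup G) ≤ ⁅M, M⁆ :=
    (sylow_le_derived hG P hp2).trans (Subgroup.commutator_mono hN₀M hN₀M)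
  have hPM : (P : Subgroup G) ≤ M := (Subgroup.le_normalizer.trans (normalizer_le_normalizer_Z _)).trans hN₀M
  have hAM : A ≤ M := hA.1.trans hPM
  obtain ⟨q, hq, hq3⟩ : ∃ q : ℕ, q.Prime ∧ ¬ Cfsg.PRankLE q 2 ↥(Cfsg.fittingOf M) := by
    by_contra hno
    push Not at hno
    exact hP3 (prankLE_mono (hPM'.trans (derived_le_fittingOf (odd_card hG M) hno)) (hgood M hM))
  haveI := Fact.mk hq
  have hqp : q ≠ p := by
    rintro rfl
    exact hq3 (hgood M hM)
  have hqU : AllUnique q G := allUnique_of_fitting hG hM hq3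
  set S := Cfsg.pCoreOf q M with hS
  have hSq : IsPGroup q S := isPGroup_pCoreOf q M
  have hSM : S ≤ M := pCoreOf_le q M
  obtain ⟨Eq, hEqF, hEq, hEqc⟩ := exists_elem_of_not_prank hq3
  have hEqS : Eq ≤ S := le_pCoreOf_of_le_fittingOf (isPGroup_of_elementary hEq) hEqF
  have hq2 : q ≠ 2 := ne_two hG (dvd_card_of_elementary hEqc)
  have hSU : Cfsg.InUniqueMaximal S := unique_mono (hqU Eq hEq hEqc) hEqS (pgroup_ne_top hG hSq)
  have hS3 : ¬ Cfsg.PRankLE q 2 ↥S := not_prank_of_elem hEqS hEq (pow_lt_card hEqc)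
  have hASn : A ≤ Subgroup.normalizer (S : Set G) :=
    hAM.trans (Subgroup.le_normalizer.trans (normalizer_le_normalizer_pCoreOf q M))
  -- once `V` centralizes `S` we are done
  have hdone : V ≤ Subgroup.centralizer (S : Set G) → Cfsg.InUniqueMaximal A := fun h =>
    unique_mono (unique_of_commute hG hSU hM hSM hV hplt3 h).1 hVA (pgroup_ne_top hG hAp)
  by_cases hnar : Cfsg.IsNarrow q ↥(Cfsg.pCore q M)
  · exact hdone ((hVA.trans hA.1).trans
      (le_centralizer_pCoreOf_of_narrow hqp hq2 (odd_card hG M) P.isPGroup' hPM' hnar))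
  have hVS : V ≤ Subgroup.normalizer (S : Set G) := hVA.trans hASn
  have hSnc : ¬ IsCyclic S := fun h => not_isCyclic_of_elementary hEq
    (hEqc ▸ lt_self_pow₀ hq.one_lt (by norm_num))
    (isCyclic_of_injective (Subgroup.inclusion hEqS) (Subgroup.inclusion_injective hEqS))
  set ι : ↥(Cfsg.pCore q M) →* G := M.subtype.comp (Cfsg.pCore q M).subtype with hι
  have hιinj : Function.Injective ι := M.subtype_injective.comp (Cfsg.pCore q M).subtype_injective
  have hιS : ∀ B : Subgroup ↥(Cfsg.pCore q M), B.map ι ≤ S := by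
    rintro B _ ⟨b, -, rfl⟩
    exact ⟨b, b.2, rfl⟩
  have hmapE : ∀ B : Subgroup ↥(Cfsg.pCore q M), Cfsg.IsElementaryAbelian q B →
      Cfsg.IsElementaryAbelian q (B.map ι) := by
    intro B hB
    refine ⟨?_, ?_⟩
    · haveI := hB.1; infer_instance
    · rintro _ ⟨b, hb, rfl⟩
      rw [← map_pow, hB.2 b hb, map_one]
  have hcomapE : ∀ E : Subgroup G, E ≤ S → Cfsg.IsElementaryAbelian q E →
      Cfsg.IsElementaryAbelian q (E.comap ι) ∧ Nat.card ↥(E.comap ι) = Nat.card E := by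
    intro E hES hE
    have hmap : (E.comap ι).map ι = E := by
      refine le_antisymm (Subgroup.map_comap_le ι E) fun e he => ?_
      obtain ⟨e', he', hee⟩ := hES he
      have hee' : ι ⟨e', he'⟩ = e := hee
      exact ⟨⟨e', he'⟩, show ι ⟨e', he'⟩ ∈ E by rw [hee']; exact he, hee'⟩
    refine ⟨⟨⟨⟨fun x y => Subtype.ext (hιinj ?_)⟩⟩, fun a ha => hιinj ?_⟩, ?_⟩
    · show ι ((x : Cfsg.pCore q M) * y) = ι ((y : Cfsg.pCore q M) * x)
      rw [map_mul, map_mul]
      exact NormalEl.commute_of_elementary hE x.2 y.2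
    · rw [map_pow, map_one]; exact hE.2 _ ha
    · rw [← Subgroup.card_map_of_injective hιinj, hmap]
  have hQ3 : ¬ Cfsg.PRankLE q 2 ↥(Cfsg.pCore q M) := fun h => by
    obtain ⟨hc, hcard⟩ := hcomapE Eq hEqS hEq
    have h1 := h _ hc.1 hc.2
    rw [hcard, hEqc] at h1
    exact absurd h1 (not_le.2 (Nat.pow_lt_pow_right hq.one_lt (by norm_num)))
  -- centralizers of nontrivial subgroups of `S`
  have hCR : ∀ R : Subgroup G, R ≤ S → R ≠ ⊥ → Subgroup.centralizer (R : Set G) ≤ M := by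
    intro R hRS hR1
    obtain ⟨⟨s, hs⟩, hso⟩ := exists_prime_orderOf_dvd_card' q (dvd_card_of_ne_bot (hSq.to_le hRS) hR1)
    rw [Subgroup.orderOf_mk] at hso
    obtain ⟨s₁, hs₁, rfl⟩ := hRS hs
    obtain ⟨B, hB, hBc, hBle⟩ := exists_cube_singleton hq2 (Components.pCore_isPGroup q) hQ3 hnar
      (s := (⟨s₁, hs₁⟩ : Cfsg.pCore q M)) (hιinj (by
        rw [map_pow, map_one]
        exact orderOf_dvd_iff_pow_eq_one.1 hso.dvd))
    have hs1 : (M.subtype s₁) ≠ 1 := fun e => by
      rw [e, orderOf_one] at hso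
      exact hq.ne_one hso.symm
    refine (Subgroup.centralizer_le (Set.singleton_subset_iff.2 hs)).trans ?_
    refine centralizer_singleton_le_of_unique hG (hqU _ (hmapE B hB) (by
      rw [Subgroup.card_map_of_injective hιinj, hBc])) hM ((hιS B).trans hSM) hs1 ?_
    refine Subgroup.mem_centralizer_iff.2 ?_
    rintro _ ⟨b, hb, rfl⟩
    exact (congrArg ι (Subgroup.mem_centralizer_singleton_iff.1 (hBle hb))).trans (map_mul ι _ _) |>
      fun h => ((map_mul ι _ _).symm.trans h)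
  obtain ⟨x₀, hx₀, hx₀1, hx₀nc⟩ := exists_fixing_noncyclic hqp hV hVc hSq hVS hSnc
  have hCx₀ : Subgroup.centralizer ({x₀} : Set G) ≤ M := by
    obtain ⟨E2, hE2, hE2e, hE2c⟩ := exists_elem_sq hq2 (hSq.to_le inf_le_left) hx₀nc
    have hE2S : E2 ≤ S := hE2.trans inf_le_left
    obtain ⟨hc2, hcard2⟩ := hcomapE E2 hE2S hE2e
    obtain ⟨B, hB, hBc, hBle⟩ := exists_cube hq2 (Components.pCore_isPGroup q) hQ3 hnar (E := E2.comap ι) hc2
      (by rw [hcard2, hE2c]; exact lt_self_pow₀ hq.one_lt (by norm_num))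
    have hU2 : Cfsg.InUniqueMaximal E2 ∧ E2 ≤ M := unique_of_commute hG
      (hqU _ (hmapE B hB) (by rw [Subgroup.card_map_of_injective hιinj, hBc])) hM ((hιS B).trans hSM) hE2e
      (hE2c ▸ lt_self_pow₀ hq.one_lt (by norm_num)) (by
        intro e he
        refine Subgroup.mem_centralizer_iff.2 ?_
        rintro _ ⟨b, hb, rfl⟩
        obtain ⟨e', he', hee⟩ := hE2S he
        have h := congrArg ι (Subgroup.mem_centralizer_iff.1 (hBle hb) ⟨e', he'⟩
          (show ι ⟨e', he'⟩ ∈ E2 by rw [show ι ⟨e', he'⟩ = e from hee]; exact he))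
        rw [map_mul, map_mul, show ι ⟨e', he'⟩ = e from hee] at h
        exact h.symm)
    exact centralizer_singleton_le_of_unique hG hU2.1 hM hU2.2 hx₀1 (Subgroup.mem_centralizer_iff.2 fun e he =>
      (Subgroup.mem_centralizer_singleton_iff.1 (hE2 he).2))
  have hCVM : Subgroup.centralizer (V : Set G) ≤ M :=
    (Subgroup.centralizer_le (Set.singleton_subset_iff.2 hx₀)).trans hCx₀
  have hCAM : Subgroup.centralizer (A : Set G) ≤ M := (Subgroup.centralizer_le hVA).trans hCVM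
  -- invariant `r`-subgroups for a prime with unique elementary subgroups
  have hgroup : ∀ (r : ℕ) [Fact r.Prime], r ≠ p → AllUnique r G → ∀ L : Subgroup G, IsCoatom L →
      ¬ Cfsg.PRankLE r 2 ↥(Cfsg.pCoreOf r L) → A ≤ L → Subgroup.centralizer (A : Set G) ≤ L →
      ∀ T : Subgroup G, IsPGroup r T → A ≤ Subgroup.normalizer (T : Set G) → T ≤ L := by
    intro r _ hrp hrU L hL hr3 hAL hCL T hT' hTn
    obtain ⟨B, hBc, hB, hBcard⟩ := exists_elem_of_not_prank hr3
    obtain ⟨Q₁, hQ₁, hle₁⟩ := Signalizer.exists_max_ge (q := r) (H := ⊤) (A := A) (Y := Cfsg.pCoreOf r L)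
      (Signalizer.mem_invSubgroups_top_singleton.2 ⟨isPGroup_pCoreOf r L,
        hAL.trans (Subgroup.le_normalizer.trans (normalizer_le_normalizer_pCoreOf r L))⟩)
    obtain ⟨hQ₁q, -⟩ := Signalizer.mem_invSubgroups_top_singleton.1 hQ₁.1
    have hQ₁L : Q₁ ≤ L := le_of_unique (hrU B hB hBcard) hL (hBc.trans (pCoreOf_le r L))
      (pgroup_ne_top hG hQ₁q) (hBc.trans hle₁)
    obtain ⟨Q₂, hQ₂, hle₂⟩ := Signalizer.exists_max_ge (q := r) (H := ⊤) (A := A) (Y := T)
      (Signalizer.mem_invSubgroups_top_singleton.2 ⟨hT', hTn⟩)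
    obtain ⟨k, hk, hQk⟩ := Cfsg.Agent.S1393.result hG A hT (not_rankLE_inf hA3) r Fact.out
      (prime_ne_of_mem Fact.out hAp hrp) Q₁ hQ₁ Q₂ hQ₂
    have hkL : k ∈ L := hCL (Signalizer.piCoreOf_le _ _ hk)
    refine hle₂.trans ?_
    rw [hQk]
    rintro _ ⟨y, hy, rfl⟩
    exact L.mul_mem (L.mul_mem hkL (hQ₁L hy)) (L.inv_mem hkL)
  have hqM := hgroup q hqp hqU M hM hS3 hAM hCAM
  by_cases hcen : ∀ W : Subgroup G, W ≤ V → W.relIndex V = p →
      ⁅S ⊓ Subgroup.centralizer (W : Set G), V⁆ = ⊥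
  · refine hdone (le_of_mem_centralizer ?_)
    exact CoprimeAction.le_of_hyperplane_centralizers_le
      (fun h => by rw [h, Subgroup.card_bot] at hplt3; exact absurd hp.out.one_lt (by omega)) hV.2 hVS
      (coprime_card_of_isPGroup hVp (coprime_of_qgroup hq hqp hSq))
      fun W hW hWi => (Subgroup.commutator_eq_bot_iff_le_centralizer).1 (hcen W hW hWi)
  push Not at hcen
  obtain ⟨W, hW, hWi, hWne⟩ := hcen
  set σ := S ⊓ Subgroup.centralizer (W : Set G) with hσ
  have hAσ : A ≤ Subgroup.normalizer (σ : Set G) := le_normalizer_inf_centralizer (hW.trans hVA) hASn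
  have hσVle : ⁅σ, V⁆ ≤ σ := CoprimeAction.commutator_le_of_normalizer (hVA.trans hAσ)
  refine unique_of_invariant hG hM hAM hAp hT.1 fun Y hY hYn =>
    le_of_invariant_primes hAp hY hYn fun r hr hrp Y' hY' _ hY'n => ?_
  haveI := Fact.mk hr
  by_cases hrq : r = q
  · subst hrq
    exact hqM Y' hY' hY'n
  refine CoprimeAction.le_of_hyperplane_centralizers_le
    (fun h => by rw [h, Subgroup.card_bot] at hplt3; exact absurd hp.out.one_lt (by omega)) hV.2
    (hVA.trans hY'n) (coprime_card_of_isPGroup hVp (coprime_of_qgroup hr hrp hY')) fun H hH hHi => ?_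
  set D := Y' ⊓ Subgroup.centralizer (H : Set G) with hD
  obtain ⟨x, hx, hx1⟩ := inf_hyperplanes_ne_one hVc hW hWi hH hHi
  obtain ⟨N, hN, hCN⟩ := exists_coatom_ge (centralizer_singleton_ne_top hG hx1)
  have hDN : D ≤ N := (inf_le_right.trans (Subgroup.centralizer_le (Set.singleton_subset_iff.2 hx.2))).trans hCN
  by_cases hNM : N = M
  · exact hNM ▸ hDN
  have hAN : A ≤ N := fun a ha =>
    hCN (Subgroup.mem_centralizer_singleton_iff.2 (setLike_mul_comm ha (hVA (hW hx.1))))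
  have hσN : σ ≤ N := (inf_le_right.trans (Subgroup.centralizer_le (Set.singleton_subset_iff.2 hx.1))).trans hCN
  have hCVN : Subgroup.centralizer (V : Set G) ≤ N :=
    (Subgroup.centralizer_le (Set.singleton_subset_iff.2 (hW hx.1))).trans hCN
  have hCAN : Subgroup.centralizer (A : Set G) ≤ N := (Subgroup.centralizer_le hVA).trans hCVN
  haveI := isSolvable_of_ne_top hG hN.1
  by_cases hsmall : ∀ t : ℕ, t.Prime → Cfsg.PRankLE t 2 ↥(Cfsg.fittingOf N)
  · have hder := derived_le_fittingOf (odd_card hG N) hsmall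
    have hAD : A ≤ Subgroup.normalizer (D : Set G) := le_normalizer_inf_centralizer (hH.trans hVA) hY'n
    have hDVle : ⁅D, V⁆ ≤ D := CoprimeAction.commutator_le_of_normalizer (hVA.trans hAD)
    have hσF := le_pCoreOf_of_le_fittingOf ((hSq.to_le inf_le_left : IsPGroup q σ).to_le hσVle)
      ((Subgroup.commutator_mono hσN (hVA.trans hAN)).trans hder)
    have hDF := le_pCoreOf_of_le_fittingOf ((hY'.to_le inf_le_left : IsPGroup r D).to_le hDVle)
      ((Subgroup.commutator_mono hDN (hVA.trans hAN)).trans hder)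
    rw [← CoprimeAction.commutator_sup_centralizer (hVA.trans hAD)
      (coprime_card_of_isPGroup hVp (coprime_of_qgroup hr hrp (hY'.to_le inf_le_left)))
      (Or.inl (isSolvable_of_isPGroup hVp))]
    exact sup_le (((hDF.trans (pCoreOf_le_centralizer N (Ne.symm hrq))).trans (Subgroup.centralizer_le hσF)).trans
      (hCR _ (hσVle.trans inf_le_left) hWne)) (inf_le_right.trans hCVM)
  push Not at hsmall
  obtain ⟨t, ht, ht3⟩ := hsmall
  haveI := Fact.mk ht
  obtain ⟨Et, hEtF, hEt, hEtc⟩ := exists_elem_of_not_prank ht3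
  have hEtT := le_pCoreOf_of_le_fittingOf (isPGroup_of_elementary hEt) hEtF
  have htp : t ≠ p := by
    rintro rfl
    exact ht3 (hgood N hN)
  have htU : AllUnique t G := allUnique_of_fitting hG hN ht3
  exfalso
  by_cases htq : q = t
  · subst htq
    have hle : Cfsg.pCoreOf q N ≤ M := hqM _ (isPGroup_pCoreOf q N)
      (hAN.trans (Subgroup.le_normalizer.trans (normalizer_le_normalizer_pCoreOf q N)))
    exact hNM (eq_of_unique (hqU Et hEt hEtc) hM (hEtT.trans hle) hN (hEtT.trans (pCoreOf_le q N)))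
  have ht3' : ¬ Cfsg.PRankLE t 2 ↥(Cfsg.pCoreOf t N) := not_prank_of_elem hEtT hEt (pow_lt_card hEtc)
  exact false_of_two_good hG hqp htp htq hT hAp hVA hV hVc hM hN hNM hAN hCAM hCAN hCVM hCVN hqU htU hqM
    (hgroup t htp htU N hN ht3' hAN hCAN) hS3 ht3' hCR hAM

end CfsgLib.Uniq
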