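import Cfsg.Agent.Uniqueness.Trans
import Cfsg.Agent.S1450

/-!
A `p`-subgroup whose invariant subgroups of order prime to `p` all lie in one maximal subgroup is a
uniqueness subgroup.
-/

set_option autoImplicit false
set_option linter.unusedSectionVars false
set_option linter.style.haveILetI false

namespace CfsgLib.Uniq

open CfsgLib.BenderUnique

universe u

variable {G : Type u} [Group G] [Finite G] {p : ℕ} [hp : Fact p.Prime]

theorem exists_lt_mem_normalizer {R S : Subgroup G} (hS : IsPGroup p S) (h : R < S) :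
    R < S ⊓ Subgroup.normalizer (R : Set G) :=
  lt_of_le_not_ge (le_inf h.le Subgroup.le_normalizer) (Signalizer.exists_mem_normalizer_of_lt hS h)

theorem card_lt_of_lt {R S : Subgroup G} (h : R < S) : Nat.card R < Nat.card S :=
  lt_of_not_ge fun hge => h.ne (Subgroup.eq_of_le_of_card_ge h.le hge)

/-- Elementary subgroups of a group `N` with maximal `p`-subgroup `R` have at most the rank of `R`. -/
theorem prankLE_of_sylow {N R : Subgroup G} {k : ℕ} (hR : IsPGroup p R) (hRN : R ≤ N)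
    (hmax : ∀ S : Subgroup G, IsPGroup p S → S ≤ N → R ≤ S → S = R) (hr : Cfsg.PRankLE p k ↥R) :
    Cfsg.PRankLE p k ↥N := by
  by_contra hn
  obtain ⟨E, hEN, hE, hEc⟩ := exists_elem_of_not_prank hn
  obtain ⟨S, hS⟩ := exists_sylow_eq hR hRN hmax
  obtain ⟨S', hS'⟩ := IsPGroup.exists_le_sylow
    ((isPGroup_of_elementary hE).comap_subtype : IsPGroup p (E.subgroupOf N))
  obtain ⟨g, hg⟩ := MulAction.exists_smul_eq N S' S
  have hle : (E.map (MulAut.conj (g : G)).toMonoidHom) ≤ R := by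
    rintro _ ⟨e, he, rfl⟩
    rw [← hS]
    refine ⟨g * ⟨e, hEN he⟩ * g⁻¹, ?_, by simp⟩
    rw [← hg]
    exact ⟨⟨e, hEN he⟩, hS' (show (⟨e, hEN he⟩ : N) ∈ E.subgroupOf N from he), rfl⟩
  refine not_prank_of_elem hle ⟨?_, ?_⟩ ?_ hr
  · haveI := hE.1; infer_instance
  · rintro _ ⟨a, ha, rfl⟩
    rw [← map_pow, hE.2 a ha, map_one]
  · rw [Subgroup.card_map_of_injective (MulAut.conj (g : G)).injective]
    exact pow_lt_card hEc

/-- The normalizer of `Z(J(R))` lies in `M`, for a Sylow subgroup `R` of `M`. -/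
theorem normalizer_Z_le (hG : Cfsg.IsMinSimpleOddOrder G) {M R : Subgroup G} (hM : IsCoatom M)
    (hR : IsPGroup p R) (hR1 : R ≠ ⊥) (hRM : R ≤ M)
    (hmax : ∀ S : Subgroup G, IsPGroup p S → S ≤ M → R ≤ S → S = R)
    (h : ∀ Y : Subgroup G, (Nat.card Y).Coprime p → R ≤ Subgroup.normalizer (Y : Set G) → Y ≤ M) :
    Subgroup.normalizer (ZJCenter.Z p R : Set G) ≤ M := by
  have hp2 : p ≠ 2 := ne_two hG ((dvd_card_of_ne_bot hR hR1).trans (Subgroup.card_subgroup_dvd_card R))
  haveI := isSolvable_of_ne_top hG hM.1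
  set N := Subgroup.normalizer (ZJCenter.Z p R : Set G) with hN
  have hZ1 : ZJCenter.Z p R ≠ ⊥ := ZJCenter.Z_ne_bot hR hR1
  have hNtop : N ≠ ⊤ := normalizer_ne_top hG hZ1
    (fun e => pgroup_ne_top hG hR (top_unique (e.symm.le.trans (ZJCenter.Z_le R))))
  set K := coreOf p M with hK
  by_cases hK1 : K = ⊥
  · have hMN : M ≤ N := by
      have hle := frattini_Z (odd_card hG M) hR hRM hmax
      rw [← hK, hK1, bot_sup_eq] at hle
      exact hle.trans inf_le_right
    obtain ⟨L, hL, hle⟩ := exists_coatom_ge hNtop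
    rw [eq_of_coatom_le hL hM (hMN.trans hle)]
    exact hle
  have hNK : Subgroup.normalizer (K : Set G) = M :=
    normalizer_eq_of_isCoatom hG hM (coreOf_le M) hK1 (le_normalizer_coreOf M)
  obtain ⟨SM, hSM⟩ := exists_sylow_eq hR hRM hmax
  obtain ⟨A, hA⟩ := exists_scn hR
  have hinM : ∀ {B : Subgroup G}, Cfsg.IsSCN R B → ∀ {Y : Subgroup G}, Y ≤ M → (Nat.card Y).Coprime p →
      B ≤ Subgroup.normalizer (Y : Set G) → Y ≤ K := by
    intro B hB Y hYM hY hn
    haveI := isMulCommutative_of_scn hB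
    have hBM : B ≤ M := hB.1.trans hRM
    have hscn : Cfsg.IsSCN (SM : Subgroup M) (B.subgroupOf M) := by
      refine ⟨?_, ?_, ?_⟩
      · intro b hb
        obtain ⟨c, hc, hcb⟩ := hSM.symm ▸ hB.1 (Subgroup.mem_subgroupOf.1 hb)
        rwa [M.subtype_injective hcb] at hc
      · intro s hs
        have hsR : (s : G) ∈ R := hSM ▸ ⟨s, hs, rfl⟩
        refine Subgroup.mem_normalizer_iff.2 fun a => ?_
        simp only [Subgroup.mem_subgroupOf, Subgroup.coe_mul, Subgroup.coe_inv]
        exact Subgroup.mem_normalizer_iff.1 (hB.2.1 hsR) a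
      · refine le_antisymm (fun x hx => ?_) (fun x hx => ?_)
        · obtain ⟨hxS, hxC⟩ := Subgroup.mem_inf.1 hx
          refine Subgroup.mem_subgroupOf.2 (hB.2.2 ▸ Subgroup.mem_inf.2 ⟨hSM ▸ ⟨x, hxS, rfl⟩, ?_⟩)
          exact Subgroup.mem_centralizer_iff.2 fun b hb => congrArg Subtype.val
            (Subgroup.mem_centralizer_iff.1 hxC ⟨b, hBM hb⟩ (Subgroup.mem_subgroupOf.2 hb))
        · refine Subgroup.mem_inf.2 ⟨?_, Subgroup.mem_centralizer_iff.2 fun b hb => Subtype.ext
            (setLike_mul_comm (Subgroup.mem_subgroupOf.1 hb) (Subgroup.mem_subgroupOf.1 hx))⟩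
          obtain ⟨c, hc, hcb⟩ := hSM.symm ▸ hB.1 (Subgroup.mem_subgroupOf.1 hx)
          rwa [M.subtype_injective hcb] at hc
    have hle : Y.subgroupOf M ≤ Cfsg.pPrimeCore p M := by
      refine PCore.le_pPrimeCore_of_omega hp2 PCore.isPConstrained_of_isSolvable
        (hR.to_le hB.1).comap_subtype (fun x hx hxp => Signalizer.mem_of_scn SM hscn hx hxp) ?_ ?_
      · rwa [Nat.card_congr (Subgroup.subgroupOfEquivOfLe hYM).toEquiv]
      · rw [← Subgroup.subgroupOf_normalizer_eq hYM]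
        exact Subgroup.comap_mono hn
    rw [← Subgroup.map_subgroupOf_eq_of_le hYM]
    exact Subgroup.map_mono hle
  have hconj : ∀ {X : Subgroup G}, X ≤ Subgroup.normalizer (K : Set G) → ∀ g ∈ Subgroup.normalizer (X : Set G),
      X ≤ Subgroup.normalizer ((K.map (MulAut.conj g).toMonoidHom : Subgroup G) : Set G) := by
    intro X hX g hg
    rw [Subgroup.mem_normalizer_iff_map_conj_eq] at hg
    exact hg.ge.trans ((Subgroup.map_mono hX).trans (Subgroup.le_normalizer_map _))
  have hcopK : ∀ g : G, (Nat.card (K.map (MulAut.conj g).toMonoidHom : Subgroup G)).Coprime p := fun g => by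
    rw [Subgroup.card_map_of_injective (MulAut.conj g).injective]
    exact coreOf_coprime M
  have hfix : ∀ g : G, K.map (MulAut.conj g).toMonoidHom ≤ K → g ∈ M := by
    intro g hg
    rw [← hNK, Subgroup.mem_normalizer_iff_map_conj_eq]
    exact Subgroup.eq_of_le_of_card_ge hg (Subgroup.card_map_of_injective (MulAut.conj g).injective).ge
  have hRK : R ≤ Subgroup.normalizer (K : Set G) := hNK.symm ▸ hRM
  have hNR : Subgroup.normalizer (R : Set G) ≤ M := fun g hg =>
    hfix g (hinM hA (h _ (hcopK g) (hconj hRK g hg)) (hcopK g) (hA.1.trans (hconj hRK g hg)))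
  have hG' : ∀ S : Subgroup G, IsPGroup p S → R ≤ S → S = R := by
    intro S hS hle
    refine (eq_of_le_of_not_lt hle fun hlt => ?_).symm
    have h1 := exists_lt_mem_normalizer hS hlt
    exact h1.ne (hmax _ (hS.to_le inf_le_left) (inf_le_right.trans hNR) h1.le).symm
  have hRN : R ≤ N := Subgroup.le_normalizer.trans (normalizer_le_normalizer_Z R)
  have hmaxN : ∀ S : Subgroup G, IsPGroup p S → S ≤ N → R ≤ S → S = R := fun S hS _ hle => hG' S hS hle
  haveI := isSolvable_of_ne_top hG hNtop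
  obtain ⟨D, hDR, hD, hle⟩ := frattini_inf hR hRN hmaxN
  refine hle.trans (sup_le (h _ (coreOf_coprime N) (hRN.trans (le_normalizer_coreOf N))) (inf_le_right.trans ?_))
  by_cases hr : Cfsg.PRankLE p 2 ↥R
  · have hpN : p ∣ Nat.card N := (dvd_card_of_ne_bot hR hR1).trans (Subgroup.card_dvd_of_le hRN)
    obtain ⟨-, -, -, -, -, hidx⟩ := Cfsg.Agent.S1450.result (odd_card hG N) p hpN (prankLE_of_sylow hR hRN hmaxN hr)
    haveI := PCore.pPrimePCore_normal p N
    have hDeq : D = R := by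
      refine le_antisymm hDR ?_
      rw [hD]
      refine le_inf le_rfl fun x hx => ?_
      refine ⟨⟨x, hRN hx⟩, ?_, rfl⟩
      obtain ⟨n, hn⟩ := IsPGroup.iff_orderOf.1 hR ⟨x, hx⟩
      rw [Subgroup.orderOf_mk] at hn
      refine OddFitting.mem_of_coprime_pow (H := Cfsg.pPrimePCore p N) (hidx.pow_right n).symm
        (Subtype.ext ?_) (Subgroup.pow_index_mem _ _)
      rw [Subgroup.coe_pow, ← hn]
      exact pow_orderOf_eq_one x
    rw [hDeq]
    exact hNR
  · let P : Sylow p G :=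
      { toSubgroup := R
        isPGroup' := hR
        is_maximal' := fun {S} hS hle => hG' S hS hle }
    obtain ⟨B, hB, hB3⟩ := exists_scn_three hp2 hR hr
    have hBD : B ≤ D := by
      rw [hD]
      exact le_inf hB.1 (le_pPrimePCore_map (odd_card hG N) hR hRN hmaxN hB.1 (isMulCommutative_of_scn hB) hB.2.1)
    intro g hg
    have hn := hconj (hDR.trans hRK) g hg
    refine hfix g (hinM hB ?_ (hcopK g) (hBD.trans hn))
    exact le_of_scn hG P hB hB3 (X := M) h (hcopK g) (hBD.trans hn)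

/-- **Uniqueness criterion.** -/
theorem unique_of_invariant (hG : Cfsg.IsMinSimpleOddOrder G) {M B : Subgroup G} (hM : IsCoatom M)
    (hBM : B ≤ M) (hB : IsPGroup p B) (hB1 : B ≠ ⊥)
    (h : ∀ Y : Subgroup G, (Nat.card Y).Coprime p → B ≤ Subgroup.normalizer (Y : Set G) → Y ≤ M) :
    Cfsg.InUniqueMaximal B := by
  classical
  refine ⟨M, ⟨hM, hBM⟩, ?_⟩
  by_contra hcon
  push Not at hcon
  obtain ⟨L₀, hL₀, hL₀ne⟩ := hcon
  obtain ⟨L, ⟨hL, hBL, hLne⟩, hLmax⟩ := (Set.toFinite {L : Subgroup G | IsCoatom L ∧ B ≤ L ∧ L ≠ M}).exists_maximalFor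
    (fun L : Subgroup G => (Nat.card ↥(L ⊓ M)).factorization p) _ ⟨L₀, hL₀.1, hL₀.2, hL₀ne⟩
  obtain ⟨S₀, hS₀⟩ := IsPGroup.exists_le_sylow (hB.comap_subtype : IsPGroup p (B.subgroupOf (L ⊓ M)))
  set R := (S₀ : Subgroup ↥(L ⊓ M)).map (L ⊓ M).subtype with hR
  have hRp : IsPGroup p R := S₀.isPGroup'.map _
  have hRLM : R ≤ L ⊓ M := Subgroup.map_subtype_le _
  have hBR : B ≤ R := by
    rw [← Subgroup.map_subgroupOf_eq_of_le (le_inf hBL hBM)]
    exact Subgroup.map_mono hS₀
  have hR1 : R ≠ ⊥ := ne_bot_of_le_ne_bot hB1 hBR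
  have hRc : Nat.card R = p ^ (Nat.card ↥(L ⊓ M)).factorization p := CoprimeAction.card_sylow_map S₀
  have hLMmax : ∀ S : Subgroup G, IsPGroup p S → R < S → S ≤ L → S ≤ M → False := by
    intro S hS hlt hSL hSM
    obtain ⟨n, hn⟩ := hS.exists_card_eq
    have h1 := (hp.out.pow_dvd_iff_le_factorization Nat.card_pos.ne').1
      (hn ▸ Subgroup.card_dvd_of_le (le_inf hSL hSM))
    have h2 := card_lt_of_lt hlt
    rw [hRc, hn, Nat.pow_lt_pow_iff_right hp.out.one_lt] at h2
    omega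
  have key : ∀ X : Subgroup G, X ≠ ⊤ → ∀ S : Subgroup G, IsPGroup p S → R < S → S ≤ X → S ≤ M → X ≤ M := by
    intro X hX S hS hlt hSX hSM
    obtain ⟨L', hL', hle⟩ := exists_coatom_ge hX
    by_cases he : L' = M
    · exact he ▸ hle
    exfalso
    obtain ⟨n, hn⟩ := hS.exists_card_eq
    have h1 := (hp.out.pow_dvd_iff_le_factorization Nat.card_pos.ne').1
      (hn ▸ Subgroup.card_dvd_of_le (le_inf (hSX.trans hle) hSM))
    have h2 := card_lt_of_lt hlt
    rw [hRc, hn, Nat.pow_lt_pow_iff_right hp.out.one_lt] at h2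
    have h3 := hLmax ⟨hL', hBR.trans (hlt.le.trans (hSX.trans hle)), he⟩
      (show (Nat.card ↥(L ⊓ M)).factorization p ≤ (Nat.card ↥(L' ⊓ M)).factorization p by omega)
    simp only at h3
    omega
  have hfin : Subgroup.normalizer (ZJCenter.Z p R : Set G) ≤ M → False := by
    intro hZ
    have hNR := (normalizer_le_normalizer_Z (p := p) R).trans hZ
    have hmaxL : ∀ S : Subgroup G, IsPGroup p S → S ≤ L → R ≤ S → S = R := by
      intro S hS hSL hle
      refine (eq_of_le_of_not_lt hle fun hlt => ?_).symm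
      exact hLMmax _ (hS.to_le inf_le_left) (exists_lt_mem_normalizer hS hlt)
        (inf_le_left.trans hSL) (inf_le_right.trans hNR)
    haveI := isSolvable_of_ne_top hG hL.1
    refine hLne (eq_of_coatom_le hM hL ?_)
    exact (frattini_Z (odd_card hG L) hRp (hRLM.trans inf_le_left) hmaxL).trans
      (sup_le (h _ (coreOf_coprime L) (hBL.trans (le_normalizer_coreOf L))) (inf_le_right.trans hZ))
  by_cases hmaxM : ∀ S : Subgroup G, IsPGroup p S → S ≤ M → R ≤ S → S = R
  · exact hfin (normalizer_Z_le hG hM hRp hR1 (hRLM.trans inf_le_right) hmaxM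
      fun Y hY hn => h Y hY (hBR.trans hn))
  · push Not at hmaxM
    obtain ⟨S, hS, hSM, hle, hne⟩ := hmaxM
    have hlt := exists_lt_mem_normalizer hS (lt_of_le_of_ne hle (Ne.symm hne))
    refine hfin (key _ ?_ _ (hS.to_le inf_le_left) hlt ?_ (inf_le_left.trans hSM))
    · exact normalizer_ne_top hG (ZJCenter.Z_ne_bot hRp hR1)
        (fun e => pgroup_ne_top hG hRp (top_unique (e.symm.le.trans (ZJCenter.Z_le R))))
    · exact inf_le_right.trans (normalizer_le_normalizer_Z R)

end CfsgLib.Uniq
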