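import Cfsg.Agent.Uniqueness.Basic
import Cfsg.Agent.S1453

/-!
In a `p`-group of rank three that is not narrow every noncyclic elementary abelian subgroup lies in the
centralizer of one of order `p ^ 3`.
-/

set_option autoImplicit false
set_option linter.unusedSectionVars false
set_option linter.style.haveILetI false

namespace CfsgLib.Uniq

variable {R : Type*} [Group R] [Finite R] {p : ℕ} [hp : Fact p.Prime]

theorem elementary_zpowers {w : R} (hw : w ^ p = 1) : Cfsg.IsElementaryAbelian p (Subgroup.zpowers w) :=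
  ⟨inferInstance, fun a ha => by
    obtain ⟨m, rfl⟩ := Subgroup.mem_zpowers_iff.1 ha
    rw [← zpow_natCast, ← zpow_mul, mul_comm, zpow_mul, zpow_natCast, hw, one_zpow]⟩

theorem isNarrow_of_maximal (hp2 : p ≠ 2) (hR : IsPGroup p R) (hr : ¬ Cfsg.PRankLE p 2 R)
    {E : Subgroup R} (hE : Cfsg.IsElementaryAbelian p E) (hE2 : Nat.card E = p ^ 2)
    (hEmax : ∀ B : Subgroup R, Cfsg.IsElementaryAbelian p B → E ≤ B → B = E) : Cfsg.IsNarrow p R := by
  classical
  obtain ⟨hET, hZc, -, hTchar, hTi⟩ := Cfsg.Agent.S1453.result p hp2 hR hr E hE hE2 hEmax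
  set T := Subgroup.centralizer
    ((Subgroup.closure {x : R | x ∈ Subgroup.upperCentralSeries R 2 ∧ x ^ p = 1} : Subgroup R) : Set R)
  set Z0 := Subgroup.closure {x : R | x ∈ Subgroup.center R ∧ x ^ p = 1}
  haveI : T.Characteristic := hTchar
  haveI : T.Normal := inferInstance
  have hZE : Z0 ≤ E := (Subgroup.closure_le _).2 fun z hz => by
    have hel := NormalEl.elementary_sup hE (elementary_zpowers hz.2) fun a _ b hb => by
      obtain ⟨m, rfl⟩ := Subgroup.mem_zpowers_iff.1 hb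
      exact Subgroup.mem_center_iff.1 (Subgroup.zpow_mem _ hz.1 m) a
    rw [← hEmax _ hel le_sup_left]
    exact (le_sup_right : Subgroup.zpowers z ≤ E ⊔ _) (Subgroup.mem_zpowers z)
  obtain ⟨s, hsE, hsT⟩ := SetLike.not_le_iff_exists.1 hET
  have hso : orderOf s = p := orderOf_eq_prime (hE.2 s hsE) fun h => hsT (h ▸ one_mem T)
  set R₀ := Subgroup.zpowers s with hR₀
  have hR₀c : Nat.card R₀ = p := by rw [hR₀, Nat.card_zpowers, hso]
  set C := Subgroup.centralizer (R₀ : Set R) with hC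
  have hR₀C : R₀ ≤ C := Subgroup.le_centralizer R₀
  have hZcen : Z0 ≤ Subgroup.center R := (Subgroup.closure_le _).2 fun z hz => hz.1
  have hZT : Z0 ≤ T := hZcen.trans (Subgroup.center_le_centralizer _)
  have hEgen : E ≤ Z0 ⊔ R₀ := by
    have hlt : Z0 < Z0 ⊔ R₀ := lt_of_le_of_ne le_sup_left fun h =>
      hsT (hZT (h ▸ (le_sup_right : R₀ ≤ _) (Subgroup.mem_zpowers s)))
    refine (Subgroup.eq_of_le_of_card_ge (sup_le hZE (Subgroup.zpowers_le.2 hsE)) ?_).ge
    rw [hE2]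
    exact NormalEl.pow_succ_le_card hR hlt (hZc.trans (pow_one p).symm)
  have homega : ∀ x ∈ C, x ^ p = 1 → x ∈ E := by
    intro x hx hxp
    have hcomm : ∀ a ∈ E, a * x = x * a := by
      intro a ha
      have hle : Z0 ⊔ R₀ ≤ Subgroup.centralizer ({x} : Set R) := sup_le
        (fun z hz => Subgroup.mem_centralizer_singleton_iff.2 (Subgroup.mem_center_iff.1 (hZcen hz) x).symm)
        (fun r hr => Subgroup.mem_centralizer_singleton_iff.2 (Subgroup.mem_centralizer_iff.1 hx r hr))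
      exact Subgroup.mem_centralizer_singleton_iff.1 (hle (hEgen ha))
    have hel := NormalEl.elementary_sup hE (elementary_zpowers hxp) fun a ha b hb => by
      obtain ⟨m, rfl⟩ := Subgroup.mem_zpowers_iff.1 hb
      exact (Commute.zpow_right (hcomm a ha) m).eq
    rw [← hEmax _ hel le_sup_left]
    exact (le_sup_right : Subgroup.zpowers x ≤ E ⊔ _) (Subgroup.mem_zpowers x)
  set R₁ := C ⊓ T with hR₁
  have hR₁cyc : IsCyclic R₁ := by
    by_contra hnc
    obtain ⟨E', hE'R, hE', hE'c⟩ := exists_elem_sq hp2 (hR.to_subgroup R₁) hnc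
    have hle : E' ≤ E := fun x hx => homega x (hE'R hx).1 (hE'.2 x hx)
    exact hET ((Subgroup.eq_of_le_of_card_ge hle (hE2.trans hE'c.symm).le).ge.trans (hE'R.trans inf_le_right))
  have hinf : R₀ ⊓ R₁ = ⊥ := by
    obtain ⟨n, hn⟩ := ((hR.to_subgroup R₀).to_le (inf_le_left : R₀ ⊓ R₁ ≤ R₀)).exists_card_eq
    rcases Nat.eq_zero_or_pos n with rfl | hn0
    · exact Subgroup.card_eq_one.1 (by rw [hn, pow_zero])
    exfalso
    have h1 : R₀ ⊓ R₁ = R₀ := Subgroup.eq_of_le_of_card_ge inf_le_left (by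
      rw [hn, hR₀c]; exact Nat.le_self_pow hn0.ne' p)
    exact hsT ((h1.ge (Subgroup.mem_zpowers s)).2.2)
  refine Or.inr ⟨R₀, R₁, hR₀c, hR₁cyc, hinf, fun a ha b hb => Subgroup.mem_centralizer_iff.1 hb.1 a ha, ?_⟩
  refine Subgroup.eq_of_le_of_card_ge (sup_le hR₀C inf_le_left) ?_
  obtain ⟨n, hn⟩ := (hR.to_subgroup R₁).exists_card_eq
  have hlt : R₁ < R₀ ⊔ R₁ := lt_of_le_of_ne le_sup_right fun h => hsT
    ((h ▸ (le_sup_left : R₀ ≤ _) (Subgroup.mem_zpowers s) : s ∈ R₁).2)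
  refine le_trans ?_ (NormalEl.pow_succ_le_card hR hlt hn)
  have h2 := Subgroup.relIndex_mul_relIndex (⊥ : Subgroup R) R₁ C bot_le inf_le_left
  rw [Subgroup.relIndex_bot_left, Subgroup.relIndex_bot_left] at h2
  rw [← h2, pow_succ, ← hn]
  refine Nat.mul_le_mul_left _ ?_
  rw [hR₁, Subgroup.inf_relIndex_left, ← hTi]
  exact Nat.le_of_dvd (by rw [hTi]; exact hp.out.pos) (Subgroup.relIndex_dvd_index_of_normal T C)

theorem exists_cube (hp2 : p ≠ 2) (hR : IsPGroup p R) (hr : ¬ Cfsg.PRankLE p 2 R) (hn : ¬ Cfsg.IsNarrow p R)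
    {E : Subgroup R} (hE : Cfsg.IsElementaryAbelian p E) (hEc : p < Nat.card E) :
    ∃ B : Subgroup R, Cfsg.IsElementaryAbelian p B ∧ Nat.card B = p ^ 3 ∧ B ≤ Subgroup.centralizer (E : Set R) := by
  have hbig : ∀ E' : Subgroup R, Cfsg.IsElementaryAbelian p E' → E ≤ E' → p ^ 3 ≤ Nat.card E' →
      ∃ B : Subgroup R, Cfsg.IsElementaryAbelian p B ∧ Nat.card B = p ^ 3 ∧
        B ≤ Subgroup.centralizer (E : Set R) := by
    intro E' hE' hle h3
    obtain ⟨B, hB, hBe, hBc⟩ := exists_elem_of_not_prank (k := 2)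
      (not_prank_of_elem le_rfl hE' ((Nat.pow_lt_pow_right hp.out.one_lt (by norm_num)).trans_le h3))
    exact ⟨B, hBe, hBc, hB.trans ((elementary_le_centralizer hE').trans (Subgroup.centralizer_le hle))⟩
  obtain ⟨k, hk⟩ := (hR.to_subgroup E).exists_card_eq
  have hk2 : 2 ≤ k := by
    rw [hk] at hEc
    by_contra h
    have := Nat.pow_le_pow_right hp.out.pos (show k ≤ 1 by omega)
    rw [pow_one] at this
    omega
  rcases hk2.eq_or_lt with rfl | hk3
  · by_cases hmax : ∀ B : Subgroup R, Cfsg.IsElementaryAbelian p B → E ≤ B → B = E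
    · exact absurd (isNarrow_of_maximal hp2 hR hr hE hk hmax) hn
    · push Not at hmax
      obtain ⟨B, hB, hle, hne⟩ := hmax
      exact hbig B hB hle (NormalEl.pow_succ_le_card hR (lt_of_le_of_ne hle (Ne.symm hne)) hk)
  · exact hbig E hE le_rfl (hk ▸ Nat.pow_le_pow_right hp.out.pos hk3)

theorem exists_cube_singleton (hp2 : p ≠ 2) (hR : IsPGroup p R) (hr : ¬ Cfsg.PRankLE p 2 R)
    (hn : ¬ Cfsg.IsNarrow p R) {s : R} (hs : s ^ p = 1) :
    ∃ B : Subgroup R, Cfsg.IsElementaryAbelian p B ∧ Nat.card B = p ^ 3 ∧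
      B ≤ Subgroup.centralizer ({s} : Set R) := by
  by_cases hsc : s ∈ Subgroup.center R
  · obtain ⟨B, -, hB, hBc⟩ := exists_elem_of_not_prank (K := (⊤ : Subgroup R)) (k := 2) (fun h => hr
      fun A hA hAe => by
        have hh := h (A.subgroupOf ⊤)
          (⟨⟨fun x y => Subtype.ext (Subtype.ext (setLike_mul_comm
            (Subgroup.mem_subgroupOf.1 x.2) (Subgroup.mem_subgroupOf.1 y.2)))⟩⟩)
          (fun a ha => Subtype.ext (by simpa using hAe _ (Subgroup.mem_subgroupOf.1 ha)))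
        rwa [Nat.card_congr (Subgroup.subgroupOfEquivOfLe le_top).toEquiv] at hh)
    exact ⟨B, hB, hBc, fun b _ => Subgroup.mem_centralizer_singleton_iff.2 (Subgroup.mem_center_iff.1 hsc b)⟩
  haveI : Nontrivial R := ⟨⟨s, 1, fun h => hsc (h ▸ one_mem _)⟩⟩
  obtain ⟨z, hz, hzo⟩ : ∃ z ∈ Subgroup.center R, orderOf z = p := by
    have := hR.center_nontrivial
    obtain ⟨n, hn'⟩ := (hR.to_subgroup (Subgroup.center R)).exists_card_eq
    have hn0 : n ≠ 0 := by
      rintro rfl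
      exact absurd (Finite.one_lt_card (α := Subgroup.center R)) (by rw [hn']; simp)
    obtain ⟨z, hz⟩ := exists_prime_orderOf_dvd_card' (G := Subgroup.center R) p (hn' ▸ dvd_pow_self p hn0)
    exact ⟨z, z.2, by rw [Subgroup.orderOf_coe]; exact hz⟩
  have hel := NormalEl.elementary_sup (elementary_zpowers hs) (elementary_zpowers (hzo ▸ pow_orderOf_eq_one z))
    fun a _ b hb => by
      obtain ⟨m, rfl⟩ := Subgroup.mem_zpowers_iff.1 hb
      exact Subgroup.mem_center_iff.1 (Subgroup.zpow_mem _ hz m) a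
  have hlt : Subgroup.zpowers z < Subgroup.zpowers s ⊔ Subgroup.zpowers z :=
    lt_of_le_of_ne le_sup_right fun h => hsc (Subgroup.zpowers_le.2 hz
      (h ▸ (le_sup_left : Subgroup.zpowers s ≤ _) (Subgroup.mem_zpowers s)))
  have hcard : p < Nat.card ↥(Subgroup.zpowers s ⊔ Subgroup.zpowers z) := by
    have := NormalEl.pow_succ_le_card hR hlt (k := 1) (by rw [Nat.card_zpowers, hzo, pow_one])
    exact (lt_self_pow₀ hp.out.one_lt (by norm_num)).trans_le this
  obtain ⟨B, hB, hBc, hle⟩ := exists_cube hp2 hR hr hn hel hcard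
  exact ⟨B, hB, hBc, hle.trans (Subgroup.centralizer_le
    (Set.singleton_subset_iff.2 ((le_sup_left : Subgroup.zpowers s ≤ _) (Subgroup.mem_zpowers s))))⟩

end CfsgLib.Uniq
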