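import Cfsg.Agent.Uniqueness.LargeFitting
import Cfsg.Agent.Uniqueness.Narrow
import Cfsg.Agent.OddFitting.Small
import Cfsg.Agent.S1451
import Cfsg.Agent.Hall.InvariantHall
import Cfsg.Agent.QdFree.GroupControl
import Cfsg.Agent.ZJCenter.Functor
import Cfsg.Agent.StableQuot.Control

/-!
In a minimal simple group of odd order every elementary abelian subgroup of order `p ^ 3` is a uniqueness
subgroup.
-/

set_option autoImplicit false
set_option linter.unusedSectionVars false
set_option linter.style.haveILetI false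

namespace CfsgLib.Uniq

open CfsgLib.BenderUnique
open scoped commutatorElement

universe u

variable {G : Type u} [Group G] [Finite G] {p : ℕ} [hp : Fact p.Prime]

theorem le_pCoreOf_of_le_fittingOf {X Q : Subgroup G} (hQ : IsPGroup p Q) (h : Q ≤ Cfsg.fittingOf X) :
    Q ≤ Cfsg.pCoreOf p X := by
  have hQX : Q ≤ X := h.trans (fittingOf_le X)
  have hle : Q.subgroupOf X ≤ Cfsg.fittingSubgroup X := fun x hx => by
    obtain ⟨y, hy, hyx⟩ := h (Subgroup.mem_subgroupOf.1 hx)
    rwa [X.subtype_injective hyx] at hy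
  haveI := Components.fittingSubgroup_isNilpotent (G := X)
  rw [← Subgroup.map_subgroupOf_eq_of_le hQX]
  refine Subgroup.map_mono (Components.subnormal_le_pCore ?_
    (hQ.of_equiv (Subgroup.subgroupOfEquivOfLe hQX).symm))
  exact Components.subnormal_trans hle
    ((Hall.Struct.nilpotent_iff_forall_subnormal (G := Cfsg.fittingSubgroup X)).1 inferInstance _)
    Components.fittingSubgroup_normal.isSubnormal

theorem pCoreOf_le_centralizer (X : Subgroup G) {q t : ℕ} [Fact q.Prime] [Fact t.Prime] (h : q ≠ t) :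
    Cfsg.pCoreOf t X ≤ Subgroup.centralizer (Cfsg.pCoreOf q X : Set G) := by
  rintro _ ⟨b, hb, rfl⟩
  refine Subgroup.mem_centralizer_iff.2 ?_
  rintro _ ⟨a, ha, rfl⟩
  exact congrArg Subtype.val ((Subgroup.commute_of_normal_of_disjoint (Cfsg.pCore q X) (Cfsg.pCore t X)
    inferInstance inferInstance
    (IsPGroup.disjoint_of_ne q t h _ _ (Components.pCore_isPGroup q) (Components.pCore_isPGroup t)) a b ha hb).eq)

/-- B&G 4.20 in relative form. -/
theorem derived_le_fittingOf {X : Subgroup G} [Group.IsSolvable X] (hodd : Odd (Nat.card X))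
    (h : ∀ r : ℕ, r.Prime → Cfsg.PRankLE r 2 ↥(Cfsg.fittingOf X)) : ⁅X, X⁆ ≤ Cfsg.fittingOf X := by
  have hr : Cfsg.RankLE 2 ↥(Cfsg.fittingSubgroup X) := by
    intro r hr
    haveI := Fact.mk hr
    by_contra hn
    obtain ⟨E, hEF, hE, hEc⟩ := exists_elem_of_not_prank hn
    refine not_prank_of_elem (E := E.map X.subtype) (Subgroup.map_mono hEF) ⟨?_, ?_⟩ ?_ (h r hr)
    · haveI := hE.1; infer_instance
    · rintro _ ⟨a, ha, rfl⟩
      rw [← map_pow, hE.2 a ha, map_one]
    · rw [Subgroup.card_map_of_injective X.subtype_injective]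
      exact pow_lt_card hEc
  rw [← Subgroup.map_subtype_commutator]
  exact Subgroup.map_mono (Components.le_fittingSubgroup inferInstance
    (Cfsg.Agent.S1451.result hodd (Or.inr hr)).1)

/-- A hyperplane of an elementary abelian group of order `p ^ 3` has order `p ^ 2`. -/
theorem card_hyperplane {V W : Subgroup G} (hV : Nat.card V = p ^ 3) (hWV : W ≤ V) (hi : W.relIndex V = p) :
    Nat.card W = p ^ 2 := by
  have h := Subgroup.relIndex_mul_relIndex (⊥ : Subgroup G) W V bot_le hWV
  rw [Subgroup.relIndex_bot_left, Subgroup.relIndex_bot_left, hV, hi, pow_succ] at h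
  exact Nat.eq_of_mul_eq_mul_right hp.out.pos h

theorem inf_hyperplanes_ne_one {V W H : Subgroup G} (hV : Nat.card V = p ^ 3) (hW : W ≤ V)
    (hWi : W.relIndex V = p) (hH : H ≤ V) (hHi : H.relIndex V = p) : ∃ x ∈ W ⊓ H, x ≠ 1 :=
  (Subgroup.bot_or_exists_ne_one _).resolve_left (inf_ne_bot_of_relIndex hV.ge hW hH hWi hHi)

/-- Some element of `V` fixes a noncyclic subgroup of `S`. -/
theorem exists_fixing_noncyclic {q : ℕ} [Fact q.Prime] (hqp : q ≠ p) {V S : Subgroup G}
    (hV : Cfsg.IsElementaryAbelian p V) (hVc : Nat.card V = p ^ 3) (hS : IsPGroup q S)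
    (hn : V ≤ Subgroup.normalizer (S : Set G)) (hSnc : ¬ IsCyclic S) :
    ∃ x ∈ V, x ≠ 1 ∧ ¬ IsCyclic ↥(S ⊓ Subgroup.centralizer ({x} : Set G)) := by
  by_contra hcon
  push Not at hcon
  have hV1 : V ≠ ⊥ := fun h => by
    rw [h, Subgroup.card_bot] at hVc
    exact absurd hVc.symm (Nat.one_lt_pow (by norm_num) hp.out.one_lt).ne'
  haveI := hV.1
  have hVp := isPGroup_of_elementary hV
  have hcop : (Nat.card V).Coprime (Nat.card S) :=
    coprime_card_of_isPGroup hVp (coprime_of_qgroup Fact.out hqp hS)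
  have hsub : S ≤ Subgroup.centralizer (V : Set G) := by
    refine CoprimeAction.le_of_hyperplane_centralizers_le hV1 hV.2 hn hcop fun W hW hWi => ?_
    by_cases hW0 : S ⊓ Subgroup.centralizer (W : Set G) = ⊥
    · rw [hW0]; exact bot_le
    obtain ⟨w, hw, hw1⟩ := (Subgroup.bot_or_exists_ne_one W).resolve_left (fun h => by
      have := card_hyperplane hVc hW hWi
      rw [h, Subgroup.card_bot] at this
      exact absurd this (Nat.one_lt_pow (by norm_num) hp.out.one_lt).ne)
    obtain ⟨W', hW', hWi', hne, hW'0⟩ : ∃ W' : Subgroup G, W' ≤ V ∧ W'.relIndex V = p ∧ W' ≠ W ∧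
        S ⊓ Subgroup.centralizer (W' : Set G) ≠ ⊥ := by
      by_contra hno
      push Not at hno
      refine hSnc ?_
      have hle : S ≤ S ⊓ Subgroup.centralizer ({w} : Set G) := by
        refine CoprimeAction.le_of_hyperplane_centralizers_le hV1 hV.2 hn hcop fun W' h1 h2 => ?_
        by_cases he : W' = W
        · rw [he]
          exact inf_le_inf_left _ (Subgroup.centralizer_le (Set.singleton_subset_iff.2 hw))
        · rw [hno W' h1 h2 he]; exact bot_le
      haveI := hcon w (hW hw) hw1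
      exact isCyclic_of_injective (Subgroup.inclusion hle) (Subgroup.inclusion_injective hle)
    obtain ⟨x, hx, hx1⟩ := inf_hyperplanes_ne_one hVc hW hWi hW' hWi'
    set C := S ⊓ Subgroup.centralizer ({x} : Set G) with hC
    haveI hCc := hcon x (hW hx.1) hx1
    have hsup : W ⊔ W' = V := by
      refine Subgroup.eq_of_le_of_card_ge (sup_le hW hW') ?_
      obtain ⟨n, hn'⟩ := (hVp.to_le (sup_le hW hW')).exists_card_eq
      have hlt : W < W ⊔ W' := lt_of_le_of_ne le_sup_left fun h => hne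
        (Subgroup.eq_of_le_of_card_ge (h ▸ (le_sup_right : W' ≤ _))
          ((card_hyperplane hVc hW hWi).trans (card_hyperplane hVc hW' hWi').symm).le)
      have h1 := card_lt_of_lt hlt
      rw [card_hyperplane hVc hW hWi, hn', Nat.pow_lt_pow_iff_right hp.out.one_lt] at h1
      rw [hVc, hn']
      exact Nat.pow_le_pow_right hp.out.pos h1
    have hfix : ∀ {B : Subgroup G}, B ≤ V → x ∈ B → S ⊓ Subgroup.centralizer (B : Set G) ≠ ⊥ →
        ∀ v ∈ C, orderOf v = q → v ∈ Subgroup.centralizer (B : Set G) := by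
      intro B _ hxB hB v hv hvo
      obtain ⟨⟨v₀, hv₀⟩, hv₀o⟩ :=
        exists_prime_orderOf_dvd_card' q (dvd_card_of_ne_bot (hS.to_le inf_le_left) hB)
      rw [Subgroup.orderOf_mk] at hv₀o
      obtain ⟨hv₀S, hv₀B⟩ := Subgroup.mem_inf.1 hv₀
      have hv₀C : v₀ ∈ C := ⟨hv₀S, Subgroup.centralizer_le (Set.singleton_subset_iff.2 hxB) hv₀B⟩
      have hcomm : ∀ a ∈ C, ∀ b ∈ C, a * b = b * a := fun a ha b hb => by
        letI := IsCyclic.commGroup (α := C)
        exact congrArg Subtype.val (mul_comm (⟨a, ha⟩ : C) ⟨b, hb⟩)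
      have hel := NormalEl.elementary_sup (p := q) (elementary_zpowers (hvo ▸ pow_orderOf_eq_one v))
        (elementary_zpowers (hv₀o ▸ pow_orderOf_eq_one v₀)) (fun a ha b hb =>
          hcomm a (Subgroup.zpowers_le.2 hv ha) b (Subgroup.zpowers_le.2 hv₀C hb))
      have hle : Subgroup.zpowers v ⊔ Subgroup.zpowers v₀ ≤ C :=
        sup_le (Subgroup.zpowers_le.2 hv) (Subgroup.zpowers_le.2 hv₀C)
      have hcard : Nat.card ↥(Subgroup.zpowers v ⊔ Subgroup.zpowers v₀) ≤ q := by
        by_contra hgt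
        exact not_isCyclic_of_elementary hel (not_le.1 hgt)
          (isCyclic_of_injective (Subgroup.inclusion hle) (Subgroup.inclusion_injective hle))
      have heq := Subgroup.eq_of_le_of_card_ge (le_sup_right : Subgroup.zpowers v₀ ≤ _)
        (hcard.trans (by rw [Nat.card_zpowers, hv₀o]))
      exact Subgroup.zpowers_le.2 hv₀B (heq.symm ▸ (le_sup_left : Subgroup.zpowers v ≤ _) (Subgroup.mem_zpowers v))
    have hVC : V ≤ Subgroup.normalizer (C : Set G) :=
      Signalizer.le_normalizer_inf hn (fun v hv => Subgroup.le_normalizer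
        (Subgroup.mem_centralizer_singleton_iff.2 (setLike_mul_comm hv (hW hx.1))))
    haveI : IsMulCommutative C := by
      letI := IsCyclic.commGroup (α := C)
      exact ⟨⟨mul_comm⟩⟩
    have hVcC : V ≤ Subgroup.centralizer (C : Set G) := by
      refine CoprimeAction.le_centralizer_of_fixes_prime_order hVC
        (hcop.coprime_dvd_right (Subgroup.card_dvd_of_le inf_le_left)) fun v hv hvp a ha => ?_
      have hvq : orderOf v = q := by
        obtain ⟨n, hn'⟩ := IsPGroup.iff_orderOf.1 hS ⟨v, hv.1⟩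
        rw [Subgroup.orderOf_mk] at hn'
        exact (Nat.prime_dvd_prime_iff_eq hvp Fact.out).1 (hvp.dvd_of_dvd_pow (dvd_of_eq hn'))
      have hle : V ≤ Subgroup.centralizer ({v} : Set G) := hsup ▸ sup_le
        (le_centralizer_singleton (hfix hW hx.1 hW0 v hv hvq))
        (le_centralizer_singleton (hfix hW' hx.2 hW'0 v hv hvq))
      exact Subgroup.mem_centralizer_singleton_iff.1 (hle ha)
    exact (inf_le_inf_left _ (Subgroup.centralizer_le (Set.singleton_subset_iff.2 hx.1))).trans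
      (le_of_mem_centralizer hVcC)
  obtain ⟨x, hx, hx1⟩ := (Subgroup.bot_or_exists_ne_one V).resolve_left hV1
  haveI := hcon x hx hx1
  have hle : S ≤ S ⊓ Subgroup.centralizer ({x} : Set G) :=
    le_inf le_rfl (hsub.trans (Subgroup.centralizer_le (Set.singleton_subset_iff.2 hx)))
  exact hSnc (isCyclic_of_injective (Subgroup.inclusion hle) (Subgroup.inclusion_injective hle))

/-- A Sylow subgroup of a subgroup is maximal among its `p`-subgroups. -/
theorem sylow_map_max {M : Subgroup G} (P : Sylow p M) :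
    ∀ S : Subgroup G, IsPGroup p S → S ≤ M → (P : Subgroup M).map M.subtype ≤ S →
      S = (P : Subgroup M).map M.subtype := by
  intro S hS hSM hle
  have h1 := P.3 (hS.comap_subtype : IsPGroup p (S.subgroupOf M)) fun x hx => hle ⟨x, hx, rfl⟩
  rw [← h1]
  exact (Subgroup.map_subgroupOf_eq_of_le hSM).symm

/-- Adjoining a `p`-element to a `{q, t}`-group of ranks at most two keeps the ranks. -/
theorem ranks_sup_zpowers {q t : ℕ} {H : Subgroup G} {v : G}
    (hπ : ∀ r : ℕ, r.Prime → r ∣ Nat.card H → r = q ∨ r = t)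
    (hq : Cfsg.PRankLE q 2 ↥H) (ht : Cfsg.PRankLE t 2 ↥H) (hpq : q ≠ p) (hpt : t ≠ p)
    (hv : v ^ p = 1) (hn : v ∈ Subgroup.normalizer (H : Set G)) {r : ℕ} (hr : r.Prime) :
    Cfsg.PRankLE r 2 ↥(H ⊔ Subgroup.zpowers v) := by
  haveI := Fact.mk hr
  set R := H ⊔ Subgroup.zpowers v with hR
  have hHR : H ≤ R := le_sup_left
  haveI : (H.subgroupOf R).Normal := Subgroup.normal_subgroupOf_of_le_normalizer
    (sup_le Subgroup.le_normalizer (Subgroup.zpowers_le.2 hn))
  have hidx : (H.subgroupOf R).index ∣ p := by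
    have htop : (Subgroup.zpowers v).subgroupOf R ⊔ H.subgroupOf R = ⊤ := by
      rw [← Subgroup.subgroupOf_sup le_sup_right hHR, sup_comm, Subgroup.subgroupOf_self]
    have h1 := Subgroup.relIndex_sup_right (H := (Subgroup.zpowers v).subgroupOf R) (K := H.subgroupOf R)
    rw [htop, Subgroup.relIndex_top_right] at h1
    rw [h1]
    refine (Subgroup.relIndex_dvd_card _ _).trans ?_
    rw [Nat.card_congr (Subgroup.subgroupOfEquivOfLe (le_sup_right : Subgroup.zpowers v ≤ R)).toEquiv,
      Nat.card_zpowers]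
    exact orderOf_dvd_of_pow_eq_one hv
  by_contra hnr
  obtain ⟨E, hER, hE, hEc⟩ := exists_elem_of_not_prank hnr
  by_cases hrp : r = p
  · subst hrp
    have hcop : (Nat.card H).Coprime r := PCore.coprime_of_not_dvd fun hd => by
      rcases hπ r hr hd with h | h
      · exact hpq h.symm
      · exact hpt h.symm
    have hinf : E ⊓ H = ⊥ := PCore.inf_eq_bot_of_isPGroup_of_coprime (isPGroup_of_elementary hE) hcop
    have h2 : H.relIndex E ∣ H.relIndex R := by
      have h3 := Subgroup.relIndex_dvd_index_of_normal (H.subgroupOf R) (E.subgroupOf R)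
      rwa [Subgroup.relIndex_subgroupOf hER] at h3
    rw [← Subgroup.inf_relIndex_right, inf_comm, hinf, Subgroup.relIndex_bot_left, hEc] at h2
    have h4 := Nat.le_of_dvd hp.out.pos (h2.trans hidx)
    have : r < r ^ (2 + 1) := lt_self_pow₀ hr.one_lt (by norm_num)
    omega
  · have hEH : E ≤ H := by
      intro e he
      refine Subgroup.mem_subgroupOf.1 (OddFitting.mem_of_coprime_pow (H := H.subgroupOf R) (y := ⟨e, hER he⟩)
        (m := r) (n := (H.subgroupOf R).index) ?_ (Subtype.ext (by simpa using hE.2 e he))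
        (Subgroup.pow_index_mem _ _))
      exact Nat.Coprime.coprime_dvd_right hidx ((Nat.coprime_primes hr hp.out).2 hrp)
    have hd : r ∣ Nat.card H :=
      ((dvd_pow_self r (Nat.succ_ne_zero 2)).trans hEc.symm.dvd).trans (Subgroup.card_dvd_of_le hEH)
    rcases hπ r hr hd with rfl | rfl
    · exact not_prank_of_elem hEH hE (pow_lt_card hEc) hq
    · exact not_prank_of_elem hEH hE (pow_lt_card hEc) ht

/-- In a group of ranks at most two, commutators with a coprime element lie in the Fitting subgroup. -/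
theorem commutator_le_fittingOf_hall {q t : ℕ} {H V σ : Subgroup G} [Group.IsSolvable H]
    (hodd : Odd (Nat.card G)) (hsol : ∀ v ∈ V, Group.IsSolvable ↥(H ⊔ Subgroup.zpowers v))
    (hπ : ∀ r : ℕ, r.Prime → r ∣ Nat.card H → r = q ∨ r = t)
    (hq : Cfsg.PRankLE q 2 ↥H) (ht : Cfsg.PRankLE t 2 ↥H) (hpq : q ≠ p) (hpt : t ≠ p)
    (hV : ∀ v ∈ V, v ^ p = 1) (hn : V ≤ Subgroup.normalizer (H : Set G)) (hσ : σ ≤ H) :
    ⁅σ, V⁆ ≤ Cfsg.fittingOf H := by
  rw [Subgroup.commutator_le]
  intro s hs v hv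
  set R := H ⊔ Subgroup.zpowers v with hR
  haveI := hsol v hv
  have hFr : ∀ r : ℕ, r.Prime → Cfsg.PRankLE r 2 ↥(Cfsg.fittingOf R) := fun r hr => by
    haveI := Fact.mk hr
    exact prankLE_mono (fittingOf_le R) (ranks_sup_zpowers hπ hq ht hpq hpt (hV v hv) (hn hv) hr)
  have hle := derived_le_fittingOf (Odd.of_dvd_nat hodd (Subgroup.card_subgroup_dvd_card R)) hFr
  have hmem : ⁅s, v⁆ ∈ Cfsg.fittingOf R :=
    hle (Subgroup.commutator_mem_commutator (Subgroup.mem_sup_left (hσ hs))
      (Subgroup.mem_sup_right (Subgroup.mem_zpowers v)))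
  have hmemH : ⁅s, v⁆ ∈ H := by
    rw [commutatorElement_def, show s * v * s⁻¹ * v⁻¹ = s * (v * s⁻¹ * v⁻¹) by group]
    exact H.mul_mem (hσ hs) ((Subgroup.mem_normalizer_iff.1 (hn hv) _).1 (H.inv_mem (hσ hs)))
  haveI := PrimeAction.fittingOf_nilpotent R
  refine le_fittingOf (C := Cfsg.fittingOf R ⊓ H) inf_le_right ?_
    (Group.nilpotent_of_mulEquiv (Subgroup.subgroupOfEquivOfLe (inf_le_left : Cfsg.fittingOf R ⊓ H ≤ _)))
    ⟨hmem, hmemH⟩
  exact (le_inf ((le_sup_left : H ≤ R).trans (Subgroup.le_normalizer.trans (normalizer_le_normalizer_fittingOf R)))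
    Subgroup.le_normalizer).trans Subgroup.inf_normalizer_le_normalizer_inf

/-- A Sylow subgroup lies in the derived group of `N(Z(J))` in a simple group of odd order. -/
theorem sylow_le_derived (hG : Cfsg.IsMinSimpleOddOrder G) (P : Sylow p G) (hp2 : p ≠ 2) :
    (P : Subgroup G) ≤ ⁅Subgroup.normalizer (ZJCenter.Z p (P : Subgroup G) : Set G),
      Subgroup.normalizer (ZJCenter.Z p (P : Subgroup G) : Set G)⁆ := by
  set N := Subgroup.normalizer (ZJCenter.Z p (P : Subgroup G) : Set G)
  have hst : Cfsg.IsNormalizerPStable p G := QdFree.isNormalizerPStable_of_odd hG.1 hp2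
  have hnorm := ZJCenter.isNormal_Z_of_stable hp2 P.isPGroup' (Fusion.isSaturated_group P)
    (StableQuot.stable_group hst P.isPGroup')
  have hcomm : _root_.commutator G = ⊤ := by
    rcases hG.2.1.eq_bot_or_eq_top_of_normal (_root_.commutator G) inferInstance with h | h
    · refine absurd ⟨⟨fun a b => ?_⟩⟩ (not_comm hG)
      have hm : ⁅a, b⁆ ∈ _root_.commutator G :=
        Subgroup.commutator_mem_commutator (Subgroup.mem_top a) (Subgroup.mem_top b)
      rw [h, Subgroup.mem_bot, commutatorElement_eq_one_iff_mul_comm] at hm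
      exact hm
    · exact h
  have hfoc : (P : Subgroup G) = (P : Subgroup G).focalSubgroup := by
    rw [← Subgroup.commutator_inf_eq_focalSubgroup, hcomm, top_inf_eq]
  conv_lhs => rw [hfoc]
  rw [Subgroup.focalSubgroup_def, Subgroup.closure_le]
  rintro g ⟨hgP, x, hx, w, rfl⟩
  have hconj : w * x⁻¹ * w⁻¹ ∈ (P : Subgroup G) := by
    rw [show w * x⁻¹ * w⁻¹ = x⁻¹ * ⁅x, w⁆ by rw [commutatorElement_def]; group]
    exact (P : Subgroup G).mul_mem ((P : Subgroup G).inv_mem hx) hgP
  obtain ⟨-, h⟩ := QdFree.controlsStrongFusionOf_of_isNormal hnorm {x⁻¹}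
    (Set.singleton_subset_iff.2 ((P : Subgroup G).inv_mem hx))
  obtain ⟨n, hn, hne⟩ := h w (by
    rintro _ ⟨a, rfl, rfl⟩
    exact hconj)
  have he := hne x⁻¹ rfl
  have : ⁅x, w⁆ = ⁅x, n⁆ := by
    rw [commutatorElement_def, commutatorElement_def, show x * w * x⁻¹ * w⁻¹ = x * (w * x⁻¹ * w⁻¹) by group, he]
    group
  rw [this]
  exact Subgroup.commutator_mem_commutator
    (Subgroup.le_normalizer.trans (normalizer_le_normalizer_Z (P : Subgroup G)) hx) hn

/-- The normalized intersection with the centralizer of a subgroup of an abelian group. -/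
theorem le_normalizer_inf_centralizer {A H T : Subgroup G} [IsMulCommutative A] (hH : H ≤ A)
    (hn : A ≤ Subgroup.normalizer (T : Set G)) :
    A ≤ Subgroup.normalizer ((T ⊓ Subgroup.centralizer (H : Set G) : Subgroup G) : Set G) :=
  Signalizer.le_normalizer_inf hn (((Subgroup.le_centralizer A).trans (Subgroup.centralizer_le hH)).trans
    Subgroup.le_normalizer)

/-- The configuration of two good maximal subgroups. -/
theorem false_of_two_good (hG : Cfsg.IsMinSimpleOddOrder G) {A V M N : Subgroup G} {q t : ℕ}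
    [hq : Fact q.Prime] [ht : Fact t.Prime] (hqp : q ≠ p) (htp : t ≠ p) (hqt : q ≠ t)
    (hA : Cfsg.TransitivityHypothesis A) (hAp : IsPGroup p A) [IsMulCommutative A]
    (hVA : V ≤ A) (hV : Cfsg.IsElementaryAbelian p V) (hVc : Nat.card V = p ^ 3)
    (hM : IsCoatom M) (hN : IsCoatom N) (hne : N ≠ M) (hAN : A ≤ N)
    (hCAM : Subgroup.centralizer (A : Set G) ≤ M) (hCAN : Subgroup.centralizer (A : Set G) ≤ N)
    (hCVM : Subgroup.centralizer (V : Set G) ≤ M) (hCVN : Subgroup.centralizer (V : Set G) ≤ N)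
    (hqU : AllUnique q G) (htU : AllUnique t G)
    (hqM : ∀ T : Subgroup G, IsPGroup q T → A ≤ Subgroup.normalizer (T : Set G) → T ≤ M)
    (htN : ∀ T : Subgroup G, IsPGroup t T → A ≤ Subgroup.normalizer (T : Set G) → T ≤ N)
    (hq3 : ¬ Cfsg.PRankLE q 2 ↥(Cfsg.pCoreOf q M)) (ht3 : ¬ Cfsg.PRankLE t 2 ↥(Cfsg.pCoreOf t N))
    (hCR : ∀ R : Subgroup G, R ≤ Cfsg.pCoreOf q M → R ≠ ⊥ → Subgroup.centralizer (R : Set G) ≤ M)
    (hAM : A ≤ M) : False := by
  set S := Cfsg.pCoreOf q M with hS
  set T := Cfsg.pCoreOf t N with hT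
  have hSq : IsPGroup q S := isPGroup_pCoreOf q M
  have hTt : IsPGroup t T := isPGroup_pCoreOf t N
  have hAS : A ≤ Subgroup.normalizer (S : Set G) :=
    hAM.trans (Subgroup.le_normalizer.trans (normalizer_le_normalizer_pCoreOf q M))
  have hNT : N ≤ Subgroup.normalizer (T : Set G) :=
    Subgroup.le_normalizer.trans (normalizer_le_normalizer_pCoreOf t N)
  have hAT : A ≤ Subgroup.normalizer (T : Set G) := hAN.trans hNT
  have hV1 : V ≠ ⊥ := fun h => by
    rw [h, Subgroup.card_bot] at hVc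
    exact absurd hVc.symm (Nat.one_lt_pow (by norm_num) hp.out.one_lt).ne'
  haveI := hV.1
  have hVp := isPGroup_of_elementary hV
  -- if `T ≤ M` or `S ≤ N` we are done
  suffices hTM : T ≤ M by
    obtain ⟨E, hET, hE, hEc⟩ := exists_elem_of_not_prank ht3
    exact hne (eq_of_unique (htU E hE hEc) hM (hET.trans hTM) hN (hET.trans (pCoreOf_le t N)))
  refine CoprimeAction.le_of_hyperplane_centralizers_le hV1 hV.2 (hVA.trans hAT)
    (coprime_card_of_isPGroup hVp (coprime_of_qgroup ht.out htp hTt)) fun H hH hHi => ?_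
  set τ := T ⊓ Subgroup.centralizer (H : Set G) with hτ
  by_contra hτM
  have hSN : S ≤ N := by
    refine CoprimeAction.le_of_hyperplane_centralizers_le hV1 hV.2 (hVA.trans hAS)
      (coprime_card_of_isPGroup hVp (coprime_of_qgroup hq.out hqp hSq)) fun W hW hWi => ?_
    set σ := S ⊓ Subgroup.centralizer (W : Set G) with hσ
    have hσq : IsPGroup q σ := hSq.to_le inf_le_left
    have hτt : IsPGroup t τ := hTt.to_le inf_le_left
    have hAσ : A ≤ Subgroup.normalizer (σ : Set G) := le_normalizer_inf_centralizer (hW.trans hVA) hAS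
    have hAτ : A ≤ Subgroup.normalizer (τ : Set G) := le_normalizer_inf_centralizer (hH.trans hVA) hAT
    by_cases hσV : ⁅σ, V⁆ = ⊥
    · exact ((Subgroup.commutator_eq_bot_iff_le_centralizer).1 hσV).trans hCVN
    obtain ⟨x, hx, hx1⟩ := inf_hyperplanes_ne_one hVc hW hWi hH hHi
    set C := Subgroup.centralizer ({x} : Set G) with hC
    have hCtop : C ≠ ⊤ := centralizer_singleton_ne_top hG hx1
    have hAC : A ≤ C := fun a ha =>
      Subgroup.mem_centralizer_singleton_iff.2 (setLike_mul_comm ha (hVA (hW hx.1)))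
    have hσC : σ ≤ C := inf_le_right.trans (Subgroup.centralizer_le (Set.singleton_subset_iff.2 hx.1))
    have hτC : τ ≤ C := inf_le_right.trans (Subgroup.centralizer_le (Set.singleton_subset_iff.2 hx.2))
    by_cases hqC : ∃ U : Subgroup G, U ≤ C ∧ IsPGroup q U ∧ A ≤ Subgroup.normalizer (U : Set G) ∧
        ¬ Cfsg.PRankLE q 2 ↥U
    · obtain ⟨U, hUC, hU, hUn, hU3⟩ := hqC
      exact absurd (hτC.trans (le_of_unique (unique_of_prank hqU (pgroup_ne_top hG hU) hU3) hM (hqM U hU hUn)
        hCtop hUC)) hτM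
    by_cases htC : ∃ U : Subgroup G, U ≤ C ∧ IsPGroup t U ∧ A ≤ Subgroup.normalizer (U : Set G) ∧
        ¬ Cfsg.PRankLE t 2 ↥U
    · obtain ⟨U, hUC, hU, hUn, hU3⟩ := htC
      exact hσC.trans (le_of_unique (unique_of_prank htU (pgroup_ne_top hG hU) hU3) hN (htN U hU hUn) hCtop hUC)
    exfalso
    push Not at hqC htC
    have hqA : ¬ q ∣ Nat.card A := prime_ne_of_mem hq.out hAp hqp
    have htA : ¬ t ∣ Nat.card A := prime_ne_of_mem ht.out hAp htp
    set π := Cfsg.primesNotDvd (Nat.card A)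
    set Y := Cfsg.piCoreOf π C with hY
    have hσY : σ ≤ Y := Signalizer.le_piCoreOf_of_mem hA hCtop hAC
      (Signalizer.isPGroup_mem_invSubgroups hqA hσC hσq hAσ)
    have hτY : τ ≤ Y := Signalizer.le_piCoreOf_of_mem hA hCtop hAC
      (Signalizer.isPGroup_mem_invSubgroups htA hτC hτt hAτ)
    have hYC : Y ≤ C := Signalizer.piCoreOf_le _ _
    have hAY : A ≤ Subgroup.normalizer (Y : Set G) := hAC.trans (Signalizer.le_normalizer_piCoreOf _ _)
    have hcop := Signalizer.coprime_card_of_isPi (A := A) (Signalizer.piCoreOf_isPi π C)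
    haveI := isSolvable_of_ne_top hG hCtop
    have hYs : Group.IsSolvable Y :=
      Group.isSolvable_of_isSolvable_injective (Subgroup.inclusion_injective hYC)
    obtain ⟨-, hconj, hex⟩ := Hall.coprime_invariant_hall A Y hAY hcop hYs {q, t}
    have honly : ∀ {r : ℕ}, r.Prime → ∀ {U : Subgroup G}, IsPGroup r U → ∀ s : ℕ, s.Prime → s ∣ Nat.card U →
        s = r := by
      intro r hr U hU s hs hd
      haveI := Fact.mk hr
      obtain ⟨n, hn⟩ := hU.exists_card_eq
      rw [hn] at hd
      exact (Nat.prime_dvd_prime_iff_eq hs hr).1 (hs.dvd_of_dvd_pow hd)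
    obtain ⟨X, hX, hAX, hσX⟩ := hex σ hσY hAσ fun s hs hd => Or.inl (honly hq.out hσq s hs hd)
    obtain ⟨X₂, hX₂, hAX₂, hτX₂⟩ := hex τ hτY hAτ fun s hs hd => Or.inr (honly ht.out hτt s hs hd)
    obtain ⟨c, hc, hce⟩ := hconj X₂ X hX₂ hAX₂ hX hAX
    have hcτ : c ∈ Subgroup.normalizer (τ : Set G) :=
      Subgroup.inf_normalizer_le_normalizer_inf ⟨hNT (hCAN hc.2),
        Components.normalizer_le_normalizer_centralizer _
          (Subgroup.centralizer_le_normalizer _ (Subgroup.centralizer_le (hH.trans hVA) hc.2))⟩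
    have hτX : τ ≤ X := by
      rw [hce, ← Subgroup.mem_normalizer_iff_map_conj_eq.1 hcτ]
      exact Subgroup.map_mono hτX₂
    have hXC : X ≤ C := hX.1.trans hYC
    have hrank : ∀ (r : ℕ), r.Prime → r ≠ p →
        (∀ U : Subgroup G, U ≤ C → IsPGroup r U → A ≤ Subgroup.normalizer (U : Set G) → Cfsg.PRankLE r 2 ↥U) →
        Cfsg.PRankLE r 2 ↥X := by
      intro r hr hrp h
      haveI := Fact.mk hr
      obtain ⟨P, hP⟩ := CoprimeAction.exists_invariant_sylow hAX
        (hcop.coprime_dvd_right (Subgroup.card_dvd_of_le hX.1)) (Or.inl (isSolvable_of_isPGroup hAp)) r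
      exact prankLE_of_sylow (P.isPGroup'.map _) (Subgroup.map_subtype_le _) (sylow_map_max P)
        (h _ ((Subgroup.map_subtype_le _).trans hXC) (P.isPGroup'.map _) hP)
    have hπX : ∀ r : ℕ, r.Prime → r ∣ Nat.card X → r = q ∨ r = t := fun r hr hd => hX.2.1 r hr hd
    haveI : Group.IsSolvable X :=
      Group.isSolvable_of_isSolvable_injective (Subgroup.inclusion_injective hXC)
    have hsol : ∀ v ∈ V, Group.IsSolvable ↥(X ⊔ Subgroup.zpowers v) := fun v hv =>
      Group.isSolvable_of_isSolvable_injective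
        (Subgroup.inclusion_injective (sup_le hXC (Subgroup.zpowers_le.2 (hAC (hVA hv)))))
    have hFσ := commutator_le_fittingOf_hall hG.1 hsol hπX (hrank q hq.out hqp hqC) (hrank t ht.out htp htC)
      hqp htp hV.2 (hVA.trans hAX) hσX
    have hFτ := commutator_le_fittingOf_hall hG.1 hsol hπX (hrank q hq.out hqp hqC) (hrank t ht.out htp htC)
      hqp htp hV.2 (hVA.trans hAX) hτX
    have hσVle : ⁅σ, V⁆ ≤ σ := CoprimeAction.commutator_le_of_normalizer (hVA.trans hAσ)
    have hτVle : ⁅τ, V⁆ ≤ τ := CoprimeAction.commutator_le_of_normalizer (hVA.trans hAτ)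
    have hcomm : ⁅τ, V⁆ ≤ Subgroup.centralizer ((⁅σ, V⁆ : Subgroup G) : Set G) :=
      ((le_pCoreOf_of_le_fittingOf (hτt.to_le hτVle) hFτ).trans (pCoreOf_le_centralizer X hqt)).trans
        (Subgroup.centralizer_le (le_pCoreOf_of_le_fittingOf (hσq.to_le hσVle) hFσ))
    refine hτM ?_
    rw [← CoprimeAction.commutator_sup_centralizer (hVA.trans hAτ)
      (coprime_card_of_isPGroup hVp (coprime_of_qgroup ht.out htp hτt)) (Or.inl (isSolvable_of_isPGroup hVp))]
    exact sup_le (hcomm.trans (hCR _ (hσVle.trans inf_le_left) hσV)) (inf_le_right.trans hCVM)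
  obtain ⟨E, hES, hE, hEc⟩ := exists_elem_of_not_prank hq3
  exact hne (eq_of_unique (hqU E hE hEc) hM (hES.trans (pCoreOf_le q M)) hN (hES.trans hSN))

end CfsgLib.Uniq
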